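import Mathlib
import Cfsg.Agent.Lib.Transfer.TwoGClassSizes

/-!
# Groups with class sizes `1, m, m n`, `(m, n) = 1`: basic facts

Setting `Hyp G m n`.  This file: the general lemmas and the fact that `m` is a prime power.
-/

set_option autoImplicit false
set_option linter.unusedSectionVars false
set_option linter.style.haveILetI false

open scoped Pointwise

namespace Cfsg.Agent.Lib.Transfer.CoprimeSizes

open Cfsg.Agent.Lib.Transfer.ClassSize
  (eq_top_of_forall_conj_mem exists_sylow_of_not_dvd_index centralizer_mul_of_coprime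
    normal_of_forall_not_dvd_index)
open Cfsg.Agent.Lib.Transfer.TwoGClassSizes
open Cfsg.Agent.Lib.Core.Residual (exists_pPart_pPrimePart)

variable {G : Type*} [Group G]

/-- The hypotheses: the class sizes of `G` are `1`, `m` and `m n` with `m, n > 1` coprime. -/
structure Hyp (G : Type*) [Group G] (m n : ℕ) : Prop where
  hm : 1 < m
  hn : 1 < n
  hcop : m.Coprime n
  sizes : ∀ g : G, (cz g).index = 1 ∨ (cz g).index = m ∨ (cz g).index = m * n
  ex_m : ∃ g : G, (cz g).index = m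
  ex_mn : ∃ g : G, (cz g).index = m * n

/-- Multiplying by a central element doesn't change the centralizer. -/
theorem cz_mul_central {x c : G} (hc : c ∈ Subgroup.center G) : cz (x * c) = cz x := by
  ext y
  rw [mem_cz, mem_cz]
  have h := (Subgroup.mem_center_iff.mp hc) y
  constructor
  · intro h1
    have h2 : x * y * c = y * x * c := by
      calc x * y * c = x * (y * c) := by group
        _ = x * (c * y) := by rw [h]
        _ = x * c * y := by group
        _ = y * (x * c) := h1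
        _ = y * x * c := by group
    exact mul_right_cancel h2
  · intro h1
    calc x * c * y = x * (c * y) := by group
      _ = x * (y * c) := by rw [h]
      _ = x * y * c := by group
      _ = y * x * c := by rw [h1]
      _ = y * (x * c) := by group

/-- If `[x, b] ∈ Z`, then `b` normalizes `C(x)`. -/
theorem conj_mem_cz_of_central {x b d : G} (hb : x⁻¹ * (b * x * b⁻¹) ∈ Subgroup.center G)
    (hd : d ∈ cz x) : b * d * b⁻¹ ∈ cz x := by
  have h1 := conj_mem_cz (a := b) hd
  have h2 : b * x * b⁻¹ = x * (x⁻¹ * (b * x * b⁻¹)) := by group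
  rw [h2, cz_mul_central hb] at h1
  exact h1

theorem mem_cz_self (x : G) : x ∈ cz x := by rw [mem_cz]

theorem mem_cz_comm {x y : G} : y ∈ cz x ↔ x ∈ cz y := by
  rw [mem_cz, mem_cz]
  exact ⟨fun h => h.symm, fun h => h.symm⟩

theorem center_le_cz (x : G) : Subgroup.center G ≤ cz x := by
  intro c hc
  rw [mem_cz]
  exact ((Subgroup.mem_center_iff.mp hc) x)

theorem cz_le_of_mem_zpowers {x y : G} (h : y ∈ Subgroup.zpowers x) : cz x ≤ cz y := by
  intro z hz
  rw [mem_cz] at hz ⊢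
  obtain ⟨k, rfl⟩ := Subgroup.mem_zpowers_iff.mp h
  have hc : Commute x z := hz
  exact (hc.zpow_left k).eq

/-- Centre of a subgroup, as a subgroup of `G`. -/
abbrev zc (D : Subgroup G) : Subgroup G := D ⊓ Subgroup.centralizer (D : Set G)

theorem zc_comm (D : Subgroup G) : ∀ a ∈ zc D, ∀ b ∈ zc D, Commute a b := by
  intro a ha b hb
  have h1 := Subgroup.mem_centralizer_iff.mp ha.2 b hb.1
  exact h1.symm

/-- `q`-elements central in `D`. -/
abbrev pz (D : Subgroup G) (q : ℕ) : Subgroup G := pPart (zc D) q (zc_comm D)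

theorem mem_pz {D : Subgroup G} {q : ℕ} {g : G} :
    g ∈ pz D q ↔ g ∈ D ∧ (∀ d ∈ D, d * g = g * d) ∧ ∃ k : ℕ, g ^ q ^ k = 1 := by
  rw [pz, mem_pPart, Subgroup.mem_inf, Subgroup.mem_centralizer_iff]
  simp only [SetLike.mem_coe]
  tauto

theorem center_comm : ∀ a ∈ Subgroup.center G, ∀ b ∈ Subgroup.center G, Commute a b := by
  intro a ha b _
  exact (Subgroup.mem_center_iff.mp ha b).symm

/-- The `q`-part of the centre. -/
abbrev cW (G : Type*) [Group G] (q : ℕ) : Subgroup G := pPart (Subgroup.center G) q center_comm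

theorem mem_cW {q : ℕ} {g : G} : g ∈ cW G q ↔ g ∈ Subgroup.center G ∧ ∃ k : ℕ, g ^ q ^ k = 1 :=
  Iff.rfl

theorem isPGroup_cW (q : ℕ) : IsPGroup q (cW G q) := isPGroup_pPart _ _ _

theorem eq_of_le_of_index_eq [Finite G] {A B : Subgroup G} (hAB : A ≤ B) (h : A.index = B.index) :
    A = B := by
  have h1 := Subgroup.relIndex_mul_index hAB
  rw [h] at h1
  have hpos : 0 < B.index := Nat.pos_of_ne_zero Subgroup.index_ne_zero_of_finite
  have h2 : A.relIndex B = 1 := Nat.eq_of_mul_eq_mul_right hpos (by rw [h1, one_mul])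
  exact le_antisymm hAB (Subgroup.relIndex_eq_one.mp h2)

section Index

variable [Finite G]

theorem card_lt_of_lt {A B : Subgroup G} (h : A < B) : Nat.card A < Nat.card B := by
  have h1 : Nat.card A = (A : Set G).ncard := Nat.card_coe_set_eq _
  have h2 : Nat.card B = (B : Set G).ncard := Nat.card_coe_set_eq _
  rw [h1, h2]
  exact Set.ncard_lt_ncard (SetLike.coe_ssubset_coe.mpr h) (Set.toFinite _)

/-- `|P : P ∩ D|` divides `|G : D|` if `P` normalizes `D`. -/
theorem relIndex_dvd_index_of_le_normalizer {D P : Subgroup G}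
    (hP : P ≤ Subgroup.normalizer (D : Set G)) : D.relIndex P ∣ D.index := by
  let L : Subgroup G := Subgroup.normalizer (D : Set G)
  have hDL : D ≤ L := Subgroup.le_normalizer
  haveI hn : (D.subgroupOf L).Normal := Subgroup.normal_in_normalizer
  have h1 := Subgroup.relIndex_dvd_index_of_normal (D.subgroupOf L) (P.subgroupOf L)
  have h2 : (D.subgroupOf L).relIndex (P.subgroupOf L) = D.relIndex P := by
    rw [Subgroup.subgroupOf, Subgroup.relIndex_comap]
    congr 1
    rw [Subgroup.subgroupOf, Subgroup.map_comap_eq]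
    simp [L, hP]
  rw [h2] at h1
  exact h1.trans (Subgroup.relIndex_dvd_index_of_le hDL)

/-- `|E : E ∩ C|` divides `|G : C|` if `E` is normal. -/
theorem relIndex_dvd_index_of_normal_right {C E : Subgroup G} [hE : E.Normal] :
    C.relIndex E ∣ C.index := by
  have h1 := Cfsg.Agent.Lib.FGS.Product.ncard_mul_mul_card_inf E C
  have h2 : ((E : Set G) * (C : Set G)).ncard = Nat.card (E ⊔ C : Subgroup G) := by
    rw [← Subgroup.normal_mul]
    exact (Nat.card_coe_set_eq _).symm
  rw [h2] at h1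
  have h3 := card_inf_mul_relIndex C E
  -- `|E ⊔ C| * |E ⊓ C| = |E| * |C|`
  have h4 : (C ⊓ E : Subgroup G) = (E ⊓ C : Subgroup G) := inf_comm _ _
  rw [h4] at h3
  have hpos : 0 < Nat.card (E ⊓ C : Subgroup G) := Nat.card_pos
  have h5 : Nat.card (E ⊔ C : Subgroup G) = C.relIndex E * Nat.card C := by
    apply Nat.eq_of_mul_eq_mul_right hpos
    rw [h1, ← h3]
    ring
  have h6 : Nat.card (E ⊔ C : Subgroup G) ∣ Nat.card G := Subgroup.card_subgroup_dvd_card _
  rw [h5, ← Subgroup.card_mul_index C, mul_comm] at h6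
  exact Nat.dvd_of_mul_dvd_mul_left Nat.card_pos h6

theorem exists_mul_of_card {A B : Subgroup G} (h : Nat.card A * Nat.card B = Nat.card G * Nat.card (A ⊓ B : Subgroup G))
    (g : G) : ∃ a ∈ A, ∃ b ∈ B, g = a * b := by
  have h1 := Cfsg.Agent.Lib.FGS.Product.ncard_mul_mul_card_inf A B
  rw [h] at h1
  have h2 : ((A : Set G) * (B : Set G)).ncard = Nat.card G :=
    Nat.eq_of_mul_eq_mul_right Nat.card_pos h1
  have h3 : ((A : Set G) * (B : Set G)) = Set.univ := by
    apply Set.eq_of_subset_of_ncard_le (Set.subset_univ _) _ (Set.toFinite _)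
    rw [h2, Set.ncard_univ]
  have h4 : g ∈ ((A : Set G) * (B : Set G)) := by rw [h3]; trivial
  obtain ⟨a, ha, b, hb, rfl⟩ := h4
  exact ⟨a, ha, b, hb, rfl⟩

end Index

section Hyp

variable [Finite G] {m n : ℕ}

namespace Hyp

variable (H : Hyp G m n)
include H

theorem index_of_noncentral {g : G} (hg : g ∉ Subgroup.center G) :
    (cz g).index = m ∨ (cz g).index = m * n := by
  rcases H.sizes g with h | h | h
  · exact absurd ((index_cz_eq_one_iff g).mp h) hg
  · exact Or.inl h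
  · exact Or.inr h

theorem dvd_index {g : G} (hg : g ∉ Subgroup.center G) : m ∣ (cz g).index := by
  rcases H.index_of_noncentral hg with h | h <;> rw [h]
  exact Dvd.intro _ rfl

theorem index_ne_one_of_m : m ≠ 1 := H.hm.ne'

theorem mn_ne_m : m * n ≠ m := by
  intro h
  have : n = 1 := Nat.eq_of_mul_eq_mul_left (by have := H.hm; omega) (h.trans (mul_one m).symm)
  exact H.hn.ne' this

theorem mem_center_of_not_dvd {p : ℕ} (hpm : p ∣ m) {z : G} (h : ¬ p ∣ (cz z).index) :
    z ∈ Subgroup.center G := by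
  by_contra hz
  exact h (hpm.trans (H.dvd_index hz))

theorem not_dvd_n {p : ℕ} (hp : p.Prime) (hpm : p ∣ m) : ¬ p ∣ n := by
  intro h
  have := Nat.dvd_gcd hpm h
  rw [H.hcop.gcd_eq_one] at this
  exact hp.one_lt.ne' (Nat.dvd_one.mp this)

theorem ordProj_mn {p : ℕ} (hp : p.Prime) (hpm : p ∣ m) : ordProj[p] (m * n) = ordProj[p] m := by
  have hm0 : m ≠ 0 := by have := H.hm; omega
  have hn0 : n ≠ 0 := by have := H.hn; omega
  rw [Nat.ordProj_mul p hm0 hn0, Nat.factorization_eq_zero_of_not_dvd (H.not_dvd_n hp hpm)]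
  simp

/-- The `p`-part of `|C(g)|` for non-central `g`. -/
theorem ordProj_cz {p : ℕ} (hp : p.Prime) (hpm : p ∣ m) {g : G} (hg : g ∉ Subgroup.center G) :
    ordProj[p] (Nat.card (cz g)) * ordProj[p] m = ordProj[p] (Nat.card G) := by
  rw [← Subgroup.card_mul_index (cz g), Nat.ordProj_mul p Nat.card_pos.ne' Subgroup.index_ne_zero_of_finite]
  rcases H.index_of_noncentral hg with h | h <;> rw [h]
  rw [H.ordProj_mn hp hpm]

theorem ordProj_pos (p a : ℕ) (hp : p.Prime) : 0 < ordProj[p] a := pow_pos hp.pos _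

theorem ordProj_cz_eq {p : ℕ} (hp : p.Prime) (hpm : p ∣ m) {g g' : G} (hg : g ∉ Subgroup.center G)
    (hg' : g' ∉ Subgroup.center G) :
    ordProj[p] (Nat.card (cz g)) = ordProj[p] (Nat.card (cz g')) := by
  have h1 := H.ordProj_cz hp hpm hg
  have h2 := H.ordProj_cz hp hpm hg'
  exact Nat.eq_of_mul_eq_mul_right (pow_pos hp.pos _) (h1.trans h2.symm)

/-- The `p`-part of `|C(g)|` for arbitrary `g` is at least the `p`-part of `|C(g')|`, `g'` noncentral. -/
theorem ordProj_cz_le {p : ℕ} (hp : p.Prime) (hpm : p ∣ m) {g' : G} (hg' : g' ∉ Subgroup.center G)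
    (g : G) : ordProj[p] (Nat.card (cz g')) ≤ ordProj[p] (Nat.card (cz g)) := by
  by_cases hg : g ∈ Subgroup.center G
  · apply Nat.ordProj_dvd_ordProj_of_dvd Nat.card_pos.ne' _ p |> Nat.le_of_dvd (pow_pos hp.pos _)
    have h1 : cz g = ⊤ := by
      rw [← Subgroup.index_eq_one]
      exact (index_cz_eq_one_iff g).mpr hg
    rw [h1, Subgroup.card_top]
    exact Subgroup.card_subgroup_dvd_card _
  · exact (H.ordProj_cz_eq hp hpm hg' hg).le

omit H in
theorem exists_noncentral_of_lt {q : ℕ} [hq : Fact q.Prime] {C : Subgroup G}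
    (h : Nat.card (cW G q) < ordProj[q] (Nat.card C)) :
    ∃ y ∈ C, y ∉ Subgroup.center G ∧ ∃ k : ℕ, y ^ q ^ k = 1 := by
  obtain ⟨Q, -, hQC, hQ, hc⟩ := exists_sylow_image (p := q) C ⊥ bot_le IsPGroup.of_bot
  by_contra hcon
  push Not at hcon
  have h1 : Q ≤ cW G q := by
    intro y hy
    obtain ⟨k, hk⟩ := exists_pow_of_isPGroup hQ hy
    refine ⟨?_, k, hk⟩
    by_contra hyc
    exact hcon y (hQC hy) hyc k hk
  have h2 := Subgroup.card_le_of_le h1
  omega

/-- A non-central `q`-element of a subgroup `C ≥ Z(G)` makes `|C|_q` bigger than `|Z(G)|_q`. -/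
theorem card_cW_lt_of_mem {q : ℕ} [hq : Fact q.Prime] {C : Subgroup G}
    (hZ : Subgroup.center G ≤ C) {t : G} (ht : t ∈ C) (htc : t ∉ Subgroup.center G)
    (hk : ∃ k : ℕ, t ^ q ^ k = 1) : Nat.card (cW G q) < ordProj[q] (Nat.card C) := by
  clear H
  let T : Subgroup G := zc (cz t) ⊓ C
  have hT : ∀ a ∈ T, ∀ b ∈ T, Commute a b := fun a ha b hb => zc_comm _ a ha.1 b hb.1
  let Y : Subgroup G := pPart T q hT
  have hY : Y ≤ C := fun g hg => hg.1.2
  have h1 : cW G q < Y := by
    refine lt_of_le_of_ne ?_ ?_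
    · rintro g ⟨hg, hgk⟩
      refine ⟨⟨⟨center_le_cz t hg, ?_⟩, hZ hg⟩, hgk⟩
      exact Subgroup.mem_centralizer_iff.mpr (fun d _ => ((Subgroup.mem_center_iff.mp hg) d))
    · intro h
      have h2 : t ∈ Y := by
        refine ⟨⟨⟨mem_cz_self t, ?_⟩, ht⟩, hk⟩
        exact Subgroup.mem_centralizer_iff.mpr (fun d hd => ((mem_cz.mp hd).symm))
      rw [← h] at h2
      exact htc h2.1
  have h2 : Nat.card (cW G q) < Nat.card Y := card_lt_of_lt h1
  exact h2.trans_le (card_le_ordProj hY (isPGroup_pPart _ _ _))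

/-- `F4`. -/
theorem exists_noncentral_p {p : ℕ} [hp : Fact p.Prime] (hpm : p ∣ m) {g : G}
    (hg : g ∉ Subgroup.center G) : ∃ y ∈ cz g, y ∉ Subgroup.center G ∧ ∃ k : ℕ, y ^ p ^ k = 1 := by
  -- some noncentral `p`-element
  obtain ⟨P⟩ : Nonempty (Sylow p G) := inferInstance
  obtain ⟨x, hxP, hxc⟩ : ∃ x ∈ (P : Subgroup G), x ∉ Subgroup.center G := by
    by_contra hcon
    push Not at hcon
    have h1 : (P : Subgroup G) ≤ cz g := fun y hy => center_le_cz g (hcon y hy)
    apply P.not_dvd_index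
    exact (hpm.trans (H.dvd_index hg)).trans (Subgroup.index_dvd_of_le h1)
  obtain ⟨k, hk⟩ := exists_pow_of_isPGroup P.isPGroup' hxP
  have h2 := card_cW_lt_of_mem (H := H) (center_le_cz x) (mem_cz_self x) hxc ⟨k, hk⟩
  rw [H.ordProj_cz_eq hp.out hpm hxc hg] at h2
  exact exists_noncentral_of_lt h2

theorem exists_noncentral_in_sylow {p : ℕ} [hp : Fact p.Prime] (hpm : p ∣ m) (P : Sylow p G) :
    ∃ x ∈ (P : Subgroup G), x ∉ Subgroup.center G := by
  obtain ⟨g, hg⟩ := H.ex_m
  have hgc : g ∉ Subgroup.center G := by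
    intro h
    rw [(index_cz_eq_one_iff g).mpr h] at hg
    exact H.hm.ne hg
  by_contra hcon
  push Not at hcon
  have h1 : (P : Subgroup G) ≤ cz g := fun y hy => center_le_cz g (hcon y hy)
  apply P.not_dvd_index
  exact (hpm.trans (H.dvd_index hgc)).trans (Subgroup.index_dvd_of_le h1)

/-- `F5a`. -/
theorem le_cz_of_size_mn {x t : G} (hx : (cz x).index = m * n) (ht : t ∈ cz x)
    (hcop : (orderOf x).Coprime (orderOf t)) : cz x ≤ cz t := by
  have hc : Commute x t := mem_cz.mp ht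
  have h1 : cz (x * t) = cz x ⊓ cz t := centralizer_mul_of_coprime hc hcop
  have h2 : cz (x * t) ≤ cz x := by rw [h1]; exact inf_le_left
  have h3 : (cz x).index ∣ (cz (x * t)).index := Subgroup.index_dvd_of_le h2
  have hmn : 0 < m * n := Nat.mul_pos (by have := H.hm; omega) (by have := H.hn; omega)
  have h4 : (cz (x * t)).index = m * n := by
    rw [hx] at h3
    rcases H.sizes (x * t) with h | h | h
    · rw [h] at h3
      have : m * n = 1 := Nat.dvd_one.mp h3
      exfalso
      have h5 := H.hm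
      have h6 := H.hn
      nlinarith
    · rw [h] at h3
      exfalso
      have h5 := Nat.le_of_dvd (by have := H.hm; omega) h3
      have h6 := H.hn
      have h7 := H.hm
      nlinarith
    · exact h
  have h5 : cz (x * t) = cz x := eq_of_le_of_index_eq h2 (by rw [h4, hx])
  rw [h1] at h5
  exact inf_eq_left.mp h5

/-- `F5b`. -/
theorem relIndex_of_size_m {x t : G} (hx : (cz x).index = m) (ht : t ∈ cz x)
    (hcop : (orderOf x).Coprime (orderOf t)) :
    (cz t).relIndex (cz x) = 1 ∨ (cz t).relIndex (cz x) = n := by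
  have hc : Commute x t := mem_cz.mp ht
  have h1 : cz (x * t) = cz t ⊓ cz x := by
    exact (centralizer_mul_of_coprime hc hcop).trans (inf_comm _ _)
  have h2 : (cz t ⊓ cz x).relIndex (cz x) = (cz t).relIndex (cz x) := Subgroup.inf_relIndex_right _ _
  have h3 := Subgroup.relIndex_mul_index (inf_le_right : cz t ⊓ cz x ≤ cz x)
  rw [h2, hx, ← h1, mul_comm] at h3
  have hm0 : 0 < m := by have := H.hm; omega
  rcases H.sizes (x * t) with h | h | h
  · rw [h] at h3
    have : m ∣ 1 := Dvd.intro _ h3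
    have := Nat.dvd_one.mp this
    have h5 := H.hm
    omega
  · left
    rw [h] at h3
    exact Nat.eq_of_mul_eq_mul_left hm0 (h3.trans (mul_one m).symm)
  · right
    rw [h] at h3
    exact Nat.eq_of_mul_eq_mul_left hm0 h3

end Hyp

end Hyp

section Generic

variable {K : Type*} [Group K] [Finite K]

/-- `p`-elements commute with `p'`-elements if `p` divides no class size of a `p'`-element. -/
theorem comm_of_not_dvd (p : ℕ) [hp : Fact p.Prime]
    (h : ∀ y : K, (orderOf y).Coprime p → ¬ p ∣ (Subgroup.centralizer ({y} : Set K)).index)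
    {a b : K} (ha : ∃ k : ℕ, a ^ p ^ k = 1) (hb : (orderOf b).Coprime p) : a * b = b * a := by
  obtain ⟨Q, haQ, -⟩ := exists_sylow_of_not_dvd_index p (y := (1 : K)) (u := a)
    (by
      have : Subgroup.centralizer ({(1 : K)} : Set K) = ⊤ := by
        ext z; simp [Subgroup.mem_centralizer_iff]
      rw [this, Subgroup.index_top]
      exact hp.out.one_lt.ne' ∘ Nat.dvd_one.mp) (Commute.one_right a) ha
  have h1 := (normal_of_forall_not_dvd_index p h Q).2 b hb a haQ
  exact h1.symm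

/-- `s`-elements are central if `p` and `s` divide no class size of a `p'`-element. -/
theorem central_of_not_dvd (p s : ℕ) [hp : Fact p.Prime] [hs : Fact s.Prime] (hps : p ≠ s)
    (h : ∀ y : K, (orderOf y).Coprime p → ¬ p ∣ (Subgroup.centralizer ({y} : Set K)).index ∧
      ¬ s ∣ (Subgroup.centralizer ({y} : Set K)).index)
    {y : K} (hy : ∃ k : ℕ, y ^ s ^ k = 1) (g : K) : y * g = g * y := by
  have hone : ¬ s ∣ (Subgroup.centralizer ({(1 : K)} : Set K)).index := by
    have : Subgroup.centralizer ({(1 : K)} : Set K) = ⊤ := by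
      ext z; simp [Subgroup.mem_centralizer_iff]
    rw [this, Subgroup.index_top]
    exact hs.out.one_lt.ne' ∘ Nat.dvd_one.mp
  obtain ⟨S⟩ : Nonempty (Sylow s K) := inferInstance
  have hK : Subgroup.centralizer ((S : Subgroup K) : Set K) = ⊤ := by
    apply eq_top_of_forall_conj_mem
    intro g
    obtain ⟨u, v, huv, hc, hu, hv, -, -⟩ := exists_pPart_pPrimePart p g (isOfFinOrder_of_finite g)
    obtain ⟨Q, -, hQ⟩ := exists_sylow_of_not_dvd_index s (y := v) (u := 1) (h v hv).2
      (Commute.one_left v) ⟨0, by simp⟩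
    obtain ⟨a, ha⟩ := MulAction.exists_smul_eq K Q S
    refine ⟨a, ?_⟩
    rw [Subgroup.mem_centralizer_iff]
    intro z hz
    have hz' : z ∈ (a • Q : Sylow s K) := by rw [ha]; exact hz
    obtain ⟨w, hw, rfl⟩ := hz'
    have h1 : w * g = g * w := by
      have h2 := hQ w hw
      have h3 : u * w = w * u := by
        apply comm_of_not_dvd p (fun y hy => (h y hy).1) hu
        obtain ⟨k, hk⟩ := exists_pow_of_isPGroup Q.isPGroup' hw
        have h4 : orderOf w ∣ s ^ k := orderOf_dvd_of_pow_eq_one hk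
        refine Nat.Coprime.coprime_dvd_left h4 ?_
        exact Nat.Coprime.pow_left _ ((Nat.coprime_primes hs.out hp.out).mpr hps.symm)
      rw [← huv]
      calc w * (u * v) = (w * u) * v := by group
        _ = (u * w) * v := by rw [h3]
        _ = u * (w * v) := by group
        _ = u * (v * w) := by rw [h2]
        _ = _ := by group
    change (a * w * a⁻¹) * (a * g * a⁻¹) = (a * g * a⁻¹) * (a * w * a⁻¹)
    calc (a * w * a⁻¹) * (a * g * a⁻¹) = a * (w * g) * a⁻¹ := by group
      _ = a * (g * w) * a⁻¹ := by rw [h1]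
      _ = _ := by group
  obtain ⟨Q', hyQ', -⟩ := exists_sylow_of_not_dvd_index s (y := (1 : K)) (u := y) hone
    (Commute.one_right y) hy
  obtain ⟨b, hb⟩ := MulAction.exists_smul_eq K Q' S
  have h1 : b * y * b⁻¹ ∈ (S : Subgroup K) := by
    rw [← hb]
    exact Subgroup.mem_map_of_mem _ hyQ'
  have h2 : ∀ z : K, z * (b * y * b⁻¹) = (b * y * b⁻¹) * z := by
    intro z
    have h3 : z ∈ Subgroup.centralizer ((S : Subgroup K) : Set K) := by rw [hK]; trivial
    exact (Subgroup.mem_centralizer_iff.mp h3 _ h1).symm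
  have h3 := h2 (b * g * b⁻¹)
  have h4 : b * (g * y) * b⁻¹ = b * (y * g) * b⁻¹ := by
    calc b * (g * y) * b⁻¹ = (b * g * b⁻¹) * (b * y * b⁻¹) := by group
      _ = (b * y * b⁻¹) * (b * g * b⁻¹) := h3
      _ = _ := by group
  exact (mul_left_cancel (mul_right_cancel h4)).symm

theorem card_inf_of_pow_one {p k : ℕ} (hp : p.Prime) {x : G} (hx : x ^ p ^ k = 1) {y : G}
    (hy : (orderOf y).Coprime p) : (orderOf x).Coprime (orderOf y) := by
  have h1 : orderOf x ∣ p ^ k := orderOf_dvd_of_pow_eq_one hx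
  exact Nat.Coprime.coprime_dvd_left h1 (Nat.Coprime.pow_left _ hy.symm)

theorem coprime_of_pow_pow {p q k l : ℕ} (hp : p.Prime) (hq : q.Prime) (hpq : p ≠ q) {x y : G}
    (hx : x ^ p ^ k = 1) (hy : y ^ q ^ l = 1) : (orderOf x).Coprime (orderOf y) := by
  have h1 : orderOf x ∣ p ^ k := orderOf_dvd_of_pow_eq_one hx
  have h2 : orderOf y ∣ q ^ l := orderOf_dvd_of_pow_eq_one hy
  exact Nat.Coprime.coprime_dvd_left h1 (Nat.Coprime.coprime_dvd_right h2
    (Nat.Coprime.pow _ _ ((Nat.coprime_primes hp hq).mpr hpq)))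

theorem coprime_of_pow_ne {p q k : ℕ} (hp : p.Prime) (hq : q.Prime) (hpq : p ≠ q) {y : G}
    (hy : y ^ q ^ k = 1) : (orderOf y).Coprime p := by
  have h2 : orderOf y ∣ q ^ k := orderOf_dvd_of_pow_eq_one hy
  exact Nat.Coprime.coprime_dvd_left h2
    (Nat.Coprime.pow_left _ ((Nat.coprime_primes hq hp).mpr hpq.symm))

/-- The class size in the subgroup `D`. -/
theorem index_centralizer_subtype {D : Subgroup G} (t : D) :
    (Subgroup.centralizer ({t} : Set D)).index = (cz (t : G)).relIndex D := by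
  have : Subgroup.centralizer ({t} : Set D) = (cz (t : G)).subgroupOf D := by
    ext z
    rw [Subgroup.mem_subgroupOf, mem_cz, Subgroup.mem_centralizer_iff]
    simp only [Set.mem_singleton_iff, forall_eq]
    exact ⟨fun h => congrArg Subtype.val h, fun h => Subtype.ext h⟩
  rw [this]
  rfl

theorem le_normalizer_of_forall {P D : Subgroup G} (h : ∀ b ∈ P, ∀ d ∈ D, b * d * b⁻¹ ∈ D) :
    P ≤ Subgroup.normalizer (D : Set G) := by
  intro b hb
  rw [Subgroup.mem_normalizer_iff]
  intro d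
  refine ⟨fun hd => h b hb d hd, fun hd => ?_⟩
  have := h b⁻¹ (P.inv_mem hb) _ hd
  have e : b⁻¹ * (b * d * b⁻¹) * b⁻¹⁻¹ = d := by group
  rwa [e] at this

end Generic

section Hyp2

variable [Finite G] {m n : ℕ}

namespace Hyp

variable (H : Hyp G m n)
include H

theorem not_dvd_of_relIndex {x : G} (hx : (cz x).index = m) {s : ℕ} (hs : s.Prime) (hsn : ¬ s ∣ n)
    {t : cz x} (ht : (orderOf (t : G)).Coprime (orderOf x)) :
    ¬ s ∣ (Subgroup.centralizer ({t} : Set (cz x))).index := by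
  rw [index_centralizer_subtype]
  rcases H.relIndex_of_size_m hx t.2 ht.symm with h | h <;> rw [h]
  · exact hs.one_lt.ne' ∘ Nat.dvd_one.mp
  · exact hsn

/-- In `C(x)`, `x` a `p`-element of class size `m`, `p`-elements and `p'`-elements commute. -/
theorem comm_p {p : ℕ} [hp : Fact p.Prime] (hpm : p ∣ m) {x : G} {l : ℕ} (hxl : x ^ p ^ l = 1)
    (hx : (cz x).index = m) {y t : G} (hy : y ∈ cz x) (ht : t ∈ cz x) (hyk : ∃ k : ℕ, y ^ p ^ k = 1)
    (htc : (orderOf t).Coprime p) : y * t = t * y := by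
  have h1 : (⟨y, hy⟩ : cz x) * ⟨t, ht⟩ = ⟨t, ht⟩ * ⟨y, hy⟩ := by
    apply comm_of_not_dvd p
    · intro z hz
      apply H.not_dvd_of_relIndex hx hp.out (H.not_dvd_n hp.out hpm)
      have hz1 : (orderOf (z : G)).Coprime p := by rwa [Subgroup.orderOf_coe]
      exact (card_inf_of_pow_one hp.out hxl hz1).symm
    · obtain ⟨k, hk⟩ := hyk
      exact ⟨k, Subtype.ext (by simpa using hk)⟩
    · rwa [Subgroup.orderOf_mk]
  exact congrArg Subtype.val h1

/-- In `C(x)`, `x` a `p`-element of class size `m`, the `s`-elements are central, if `s ∤ n`. -/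
theorem central_s {p s : ℕ} [hp : Fact p.Prime] [hs : Fact s.Prime] (hpm : p ∣ m) (hps : p ≠ s)
    (hsn : ¬ s ∣ n) {x : G} {l : ℕ} (hxl : x ^ p ^ l = 1)
    (hx : (cz x).index = m) {y g : G} (hy : y ∈ cz x) (hg : g ∈ cz x) (hyk : ∃ k : ℕ, y ^ s ^ k = 1) :
    y * g = g * y := by
  have h1 : (⟨y, hy⟩ : cz x) * ⟨g, hg⟩ = ⟨g, hg⟩ * ⟨y, hy⟩ := by
    apply central_of_not_dvd p s hps
    · intro z hz
      have hz1 : (orderOf (z : G)).Coprime p := by rwa [Subgroup.orderOf_coe]
      have hz' : (orderOf (z : G)).Coprime (orderOf x) :=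
        (card_inf_of_pow_one hp.out hxl hz1).symm
      exact ⟨H.not_dvd_of_relIndex hx hp.out (H.not_dvd_n hp.out hpm) hz',
        H.not_dvd_of_relIndex hx hs.out hsn hz'⟩
    · obtain ⟨k, hk⟩ := hyk
      exact ⟨k, Subtype.ext (by simpa using hk)⟩
  exact congrArg Subtype.val h1

theorem not_mn_dvd_m : ¬ m * n ∣ m := by
  intro h
  have h1 := Nat.le_of_dvd (by have := H.hm; omega) h
  have h2 := H.hn
  have h3 := H.hm
  nlinarith

section TwoPrimes

variable {p s : ℕ} [hp : Fact p.Prime] [hs : Fact s.Prime]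

/-- Commuting non-central `p`- and `s`-elements have the same centralizer. -/
theorem eq_of_commute (hps : p ≠ s) (hpm : p ∣ m) (hsm : s ∣ m) {x w : G}
    (hx : ∃ k : ℕ, x ^ p ^ k = 1) (hw : ∃ k : ℕ, w ^ s ^ k = 1)
    (hwm : w ∈ cz x) (hxc : x ∉ Subgroup.center G) (hwc : w ∉ Subgroup.center G) : cz x = cz w := by
  obtain ⟨k, hk⟩ := hx
  obtain ⟨l, hl⟩ := hw
  have hcop : (orderOf x).Coprime (orderOf w) := coprime_of_pow_pow hp.out hs.out hps hk hl
  have hsn := H.not_dvd_n hs.out hsm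
  have hpn := H.not_dvd_n hp.out hpm
  rcases H.index_of_noncentral hxc with h1 | h1
  · have h2 : cz x ≤ cz w := by
      intro g hg
      rw [mem_cz]
      exact H.central_s hpm hps hsn hk h1 hwm hg ⟨l, hl⟩
    rcases H.index_of_noncentral hwc with h3 | h3
    · exact eq_of_le_of_index_eq h2 (by rw [h1, h3])
    · exfalso
      have h4 := Subgroup.index_dvd_of_le h2
      rw [h1, h3] at h4
      exact H.not_mn_dvd_m h4
  · have h2 : cz x ≤ cz w := H.le_cz_of_size_mn h1 hwm hcop
    rcases H.index_of_noncentral hwc with h3 | h3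
    · have h4 : cz w ≤ cz x := by
        intro g hg
        rw [mem_cz]
        exact H.central_s hsm hps.symm hpn hl h3 (mem_cz_comm.mp hwm) hg ⟨k, hk⟩
      exact le_antisymm h2 h4
    · exact eq_of_le_of_index_eq h2 (by rw [h1, h3])

/-- All non-central `p`-elements in `C(x)`, `x` non-central `p`-element, have centralizer `C(x)`. -/
theorem good (hps : p ≠ s) (hpm : p ∣ m) (hsm : s ∣ m) {x t : G}
    (hx : ∃ k : ℕ, x ^ p ^ k = 1) (ht : ∃ k : ℕ, t ^ p ^ k = 1)
    (htm : t ∈ cz x) (hxc : x ∉ Subgroup.center G) (htc : t ∉ Subgroup.center G) : cz t = cz x := by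
  obtain ⟨w, hw, hwc, hwk⟩ := H.exists_noncentral_p (p := s) hsm hxc
  have h1 := H.eq_of_commute hps hpm hsm hx hwk hw hxc hwc
  have h2 : w ∈ cz t := by
    rw [mem_cz_comm, ← h1]
    exact htm
  have h3 := H.eq_of_commute hps hpm hsm ht hwk h2 htc hwc
  rw [h3, h1]

/-- The `p`-part of `|C(x)|`, when `P` normalizes `C(x)`. -/
theorem card_inf_of_normalizes (hpm : p ∣ m) {x : G} (hxc : x ∉ Subgroup.center G) (P : Sylow p G)
    (hP : ∀ b ∈ (P : Subgroup G), ∀ d ∈ cz x, b * d * b⁻¹ ∈ cz x) :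
    Nat.card ((P : Subgroup G) ⊓ cz x : Subgroup G) = ordProj[p] (Nat.card (cz x)) ∧
      (cz x).relIndex (P : Subgroup G) = ordProj[p] m := by
  have h1 := relIndex_dvd_index_of_le_normalizer (le_normalizer_of_forall hP)
  have h2 := card_inf_mul_relIndex (cz x) (P : Subgroup G)
  have hcp : Nat.card (P : Subgroup G) = ordProj[p] (Nat.card G) := P.card_eq_multiplicity
  have h3 := H.ordProj_cz hp.out hpm hxc
  have hm0 : m ≠ 0 := by have := H.hm; omega
  have hr : ∃ j, (cz x).relIndex (P : Subgroup G) = p ^ j := by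
    obtain ⟨k, hk⟩ := IsPGroup.iff_card.mp P.isPGroup'
    have : (cz x).relIndex (P : Subgroup G) ∣ p ^ k := by
      rw [← hk, ← h2]
      exact Dvd.intro_left _ rfl
    obtain ⟨j, -, hj⟩ := (Nat.dvd_prime_pow hp.out).mp this
    exact ⟨j, hj⟩
  obtain ⟨j, hj⟩ := hr
  have h4 : (cz x).relIndex (P : Subgroup G) ∣ ordProj[p] m := by
    rw [hj]
    refine (hp.out.pow_dvd_iff_dvd_ordProj hm0).mp ?_ 
    rw [← hj]
    rcases H.index_of_noncentral hxc with h5 | h5
    · rwa [h5] at h1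
    · rw [h5] at h1
      have : p ^ j ∣ m * n := by rw [← hj]; exact h1
      have hcop : (p ^ j).Coprime n := Nat.Coprime.pow_left _ ((Nat.Prime.coprime_iff_not_dvd hp.out).mpr (H.not_dvd_n hp.out hpm))
      rw [hj]
      exact hcop.dvd_of_dvd_mul_right this
  have h5 : Nat.card (cz x ⊓ (P : Subgroup G) : Subgroup G) ≤ ordProj[p] (Nat.card (cz x)) :=
    card_le_ordProj inf_le_left (P.isPGroup'.to_le inf_le_right)
  have hmp : 0 < ordProj[p] m := pow_pos hp.out.pos _
  have hrp : 0 < ordProj[p] (Nat.card (cz x)) := pow_pos hp.out.pos _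
  have h6 := Nat.le_of_dvd hmp h4
  have h7 : Nat.card (cz x ⊓ (P : Subgroup G) : Subgroup G) * (cz x).relIndex (P : Subgroup G) =
      ordProj[p] (Nat.card (cz x)) * ordProj[p] m := by rw [h2, hcp, h3]
  have h8 : (cz x).relIndex (P : Subgroup G) = ordProj[p] m := by
    by_contra hne
    have h9 : (cz x).relIndex (P : Subgroup G) < ordProj[p] m := lt_of_le_of_ne h6 hne
    have : Nat.card (cz x ⊓ (P : Subgroup G) : Subgroup G) * (cz x).relIndex (P : Subgroup G) <
        ordProj[p] (Nat.card (cz x)) * ordProj[p] m :=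
      lt_of_le_of_lt (Nat.mul_le_mul_right _ h5) (Nat.mul_lt_mul_of_pos_left h9 hrp)
    omega
  refine ⟨?_, h8⟩
  rw [inf_comm]
  rw [h8] at h7
  exact Nat.eq_of_mul_eq_mul_right hmp h7

/-- `m_p ζ_s < ρ_s`. -/
theorem mul_lt_rho (hps : p ≠ s) (hpm : p ∣ m) (hsm : s ∣ m) :
    ∃ x : G, x ∉ Subgroup.center G ∧
      ordProj[p] m * Nat.card (cW G s) < ordProj[s] (Nat.card (cz x)) := by
  obtain ⟨P⟩ : Nonempty (Sylow p G) := inferInstance
  obtain ⟨t, htP, htc⟩ := H.exists_noncentral_in_sylow hpm P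
  obtain ⟨x, hxP, -, hxc, hx⟩ := exists_central_mod (N := ⊤) P.isPGroup' htP trivial htc
  have hxk := exists_pow_of_isPGroup P.isPGroup' hxP
  have hnorm : ∀ b ∈ (P : Subgroup G), ∀ d ∈ cz x, b * d * b⁻¹ ∈ cz x :=
    fun b hb d hd => conj_mem_cz_of_central (hx b hb) hd
  obtain ⟨-, hrel⟩ := H.card_inf_of_normalizes hpm hxc P hnorm
  refine ⟨x, hxc, ?_⟩
  have hmemY : ∀ t ∈ cz x, (∃ k : ℕ, t ^ s ^ k = 1) → t ∈ pz (cz x) s := by
    intro t ht htk
    rw [mem_pz]
    refine ⟨ht, ?_, htk⟩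
    intro d hd
    by_cases htc : t ∈ Subgroup.center G
    · exact (Subgroup.mem_center_iff.mp htc) d
    · have h1 := H.eq_of_commute hps hpm hsm hxk htk ht hxc htc
      rw [h1] at hd
      exact (mem_cz.mp hd).symm
  have hle : cW G s ≤ pz (cz x) s := by
    rintro g ⟨hg, hgk⟩
    exact hmemY g (center_le_cz x hg) hgk
  obtain ⟨w, hw, hwc, hwk⟩ := H.exists_noncentral_p (p := s) hsm hxc
  have hb := orbit_bound (p := s) (A := (P : Subgroup G)) (A₀ := (P : Subgroup G) ⊓ cz x)
    (Y := pz (cz x) s) (Y₀ := cW G s) hle (isPGroup_pPart _ _ _)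
    ⟨w, hmemY w hw hwk, fun h => hwc h.1⟩
    (by
      intro a ha y hy
      have hy' := mem_pz.mp hy
      apply hmemY _ (hnorm a ha y hy'.1)
      obtain ⟨k, hk⟩ := hy'.2.2
      refine ⟨k, ?_⟩
      rw [conj_pow, hk]
      group)
    (by
      rintro a - y ⟨hy, hyk⟩
      have : a * y * a⁻¹ = y := by
        rw [(Subgroup.mem_center_iff.mp hy) a]
        group
      rw [this]
      exact ⟨hy, hyk⟩)
    (by
      intro a ha y hy hy0
      have hy' := mem_pz.mp hy
      have hyc : y ∉ Subgroup.center G := fun h => hy0 ⟨h, hy'.2.2⟩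
      have h1 := H.eq_of_commute hps hpm hsm hxk hy'.2.2 hy'.1 hxc hyc
      constructor
      · intro h
        refine Subgroup.mem_inf.mpr ⟨ha, ?_⟩
        rw [h1, mem_cz]
        conv_lhs => rw [← h]
        group
      · intro h3
        have h2 := hy'.2.1 a (Subgroup.mem_inf.mp h3).2
        rw [h2]
        group)
    (by
      rw [Subgroup.inf_relIndex_left, hrel]
      exact Nat.Coprime.pow_left _ ((Nat.coprime_primes hp.out hs.out).mpr hps))
  rw [Subgroup.inf_relIndex_left, hrel] at hb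
  refine hb.trans_le (card_le_ordProj ?_ (isPGroup_pPart _ _ _))
  exact fun g hg => hg.1.1

/-- `ρ_s ≤ m_s ζ_s`. -/
theorem rho_le (hps : p ≠ s) (hpm : p ∣ m) (hsm : s ∣ m) {y₀ : G}
    (hy₀ : ∃ k : ℕ, y₀ ^ s ^ k = 1) (hy₀c : y₀ ∉ Subgroup.center G) :
    ordProj[s] (Nat.card (cz y₀)) ≤ ordProj[s] m * Nat.card (cW G s) := by
  by_contra hcon
  push Not at hcon
  have hgood : ∀ {x t : G}, (∃ k : ℕ, x ^ s ^ k = 1) → (∃ k : ℕ, t ^ s ^ k = 1) → t ∈ cz x →
      x ∉ Subgroup.center G → t ∉ Subgroup.center G → cz t = cz x :=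
    fun hx ht htm hxc htc => H.good hps.symm hsm hpm hx ht htm hxc htc
  set D := cz y₀ with hD
  have hcard : ∀ {y : G}, y ∉ Subgroup.center G →
      ordProj[s] (Nat.card (cz y)) = ordProj[s] (Nat.card D) :=
    fun hy => H.ordProj_cz_eq hs.out hsm hy hy₀c
  obtain ⟨Y, -, hYD, hYp, hYc⟩ := exists_sylow_image (p := s) D ⊥ bot_le IsPGroup.of_bot
  obtain ⟨S, hYS⟩ := hYp.exists_le_sylow
  have hcS : Nat.card (S : Subgroup G) = ordProj[s] (Nat.card D) * ordProj[s] m := by
    rw [S.card_eq_multiplicity, H.ordProj_cz hs.out hsm hy₀c]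
  have hρ : 0 < ordProj[s] (Nat.card D) := pow_pos hs.out.pos _
  have key : ∀ y : G, (∃ k : ℕ, y ^ s ^ k = 1) → y ∉ Subgroup.center G → ∃ a : G, a * y * a⁻¹ ∈ D := by
    intro y hy hyc
    obtain ⟨Sy, -, hSy, hSyp, hSyc⟩ := exists_sylow_image (p := s) (cz y) ⊥ bot_le IsPGroup.of_bot
    obtain ⟨T, hT⟩ := hSyp.exists_le_sylow
    obtain ⟨a, ha⟩ := MulAction.exists_smul_eq G T S
    let S' : Subgroup G := Sy.map (MulAut.conj a).toMonoidHom
    have hS'le : S' ≤ (S : Subgroup G) := by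
      rintro _ ⟨w, hw, rfl⟩
      rw [← ha]
      exact Subgroup.mem_map_of_mem _ (hT hw)
    have hS'c : Nat.card S' = ordProj[s] (Nat.card D) := by
      rw [card_map_conj, hSyc, hcard hyc]
    obtain ⟨v, hvS', hvY, hvc⟩ : ∃ v ∈ S', v ∈ Y ∧ v ∉ cW G s := by
      by_contra hcon2
      push Not at hcon2
      have hW : S' ⊓ Y ≤ cW G s := fun v hv => hcon2 v hv.1 hv.2
      have h1 := card_mul_card_le hS'le hYS hW
      rw [hS'c, hYc, hcS] at h1
      have h2 : ordProj[s] (Nat.card D) ≤ ordProj[s] m * Nat.card (cW G s) := by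
        have h3 : ordProj[s] (Nat.card D) * ordProj[s] (Nat.card D) ≤
            ordProj[s] (Nat.card D) * (ordProj[s] m * Nat.card (cW G s)) := by
          calc _ ≤ _ := h1
            _ = _ := by ring
        exact Nat.le_of_mul_le_mul_left h3 hρ
      omega
    have hvk := exists_pow_of_isPGroup hYp hvY
    have hvnc : v ∉ Subgroup.center G := fun h => hvc ⟨h, hvk⟩
    refine ⟨a, ?_⟩
    obtain ⟨w, hw, rfl⟩ := hvS'
    have hwy : (MulAut.conj a).toMonoidHom w ∈ cz (a * y * a⁻¹) := conj_mem_cz (hSy hw)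
    have hy'k : ∃ k : ℕ, (a * y * a⁻¹) ^ s ^ k = 1 := by
      obtain ⟨k, hk⟩ := hy
      refine ⟨k, ?_⟩
      rw [conj_pow, hk]
      group
    have hy'c : a * y * a⁻¹ ∉ Subgroup.center G := fun h => hyc (conj_mem_center_iff.mp h)
    have h1 := hgood hy'k hvk hwy hy'c hvnc
    have h2 := hgood hy₀ hvk (hYD hvY) hy₀c hvnc
    rw [← hD] at h2
    rw [← h2, h1]
    exact mem_cz_self _
  have hDtop : D = ⊤ := by
    apply eq_top_of_forall_conj_mem
    intro g
    by_cases hg : g ∈ Subgroup.center G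
    · exact ⟨1, by simpa using center_le_cz y₀ hg⟩
    · obtain ⟨y, hy, hyc, hyk⟩ := H.exists_noncentral_p (p := s) hsm hg
      obtain ⟨a, ha⟩ := key y hyk hyc
      refine ⟨a, ?_⟩
      have hy'k : ∃ k : ℕ, (a * y * a⁻¹) ^ s ^ k = 1 := by
        obtain ⟨k, hk⟩ := hyk
        refine ⟨k, ?_⟩
        rw [conj_pow, hk]
        group
      have hy'c : a * y * a⁻¹ ∉ Subgroup.center G := fun h => hyc (conj_mem_center_iff.mp h)
      have h1 := hgood hy₀ hy'k ha hy₀c hy'c
      rw [← hD] at h1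
      rw [← h1]
      exact conj_mem_cz (mem_cz_comm.mp hy)
  apply hy₀c
  rw [← index_cz_eq_one_iff, ← hD, hDtop, Subgroup.index_top]

theorem two_primes_lt (hps : p ≠ s) (hpm : p ∣ m) (hsm : s ∣ m) : ordProj[p] m < ordProj[s] m := by
  obtain ⟨x, hxc, h1⟩ := H.mul_lt_rho hps hpm hsm
  obtain ⟨y, -, hyc, hyk⟩ := H.exists_noncentral_p (p := s) hsm hxc
  have h2 := H.rho_le hps hpm hsm hyk hyc
  rw [H.ordProj_cz_eq hs.out hsm hyc hxc] at h2
  have h3 : 0 < Nat.card (cW G s) := Nat.card_pos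
  exact Nat.lt_of_mul_lt_mul_right (h1.trans_le h2)

end TwoPrimes

/-- `m` is a power of a prime. -/
theorem exists_prime_pow : ∃ p : ℕ, p.Prime ∧ ∃ e : ℕ, m = p ^ e ∧ 1 ≤ e := by
  have hm1 : m ≠ 1 := H.hm.ne'
  have hm0 : m ≠ 0 := by have := H.hm; omega
  have hp := Nat.minFac_prime hm1
  refine ⟨m.minFac, hp, ?_⟩
  have huniq : ∀ {d : ℕ}, d.Prime → d ∣ m → d = m.minFac := by
    intro d hd hdm
    by_contra hne
    haveI : Fact d.Prime := ⟨hd⟩
    haveI : Fact m.minFac.Prime := ⟨hp⟩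
    have h1 := H.two_primes_lt (p := d) (s := m.minFac) hne hdm (Nat.minFac_dvd m)
    have h2 := H.two_primes_lt (p := m.minFac) (s := d) (Ne.symm hne) (Nat.minFac_dvd m) hdm
    omega
  have h := Nat.eq_prime_pow_of_unique_prime_dvd hm0 huniq
  refine ⟨_, h, ?_⟩
  by_contra he
  have : m.primeFactorsList.length = 0 := by omega
  rw [this, pow_zero] at h
  exact hm1 h

end Hyp

end Hyp2

end Cfsg.Agent.Lib.Transfer.CoprimeSizes
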