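import Mathlib
import Cfsg.Agent.Lib.Transfer.CoprimeSizes

/-!
# Groups with class sizes `1, m, m n`: tools

* `no_fpf_pair_mod`: the norm identity for two commuting automorphisms of order `q`;
* `free_rank`: a `p`-group acting "freely modulo the centre" on an abelian `p'`-group and centralizing
  modulo `C(x)`: the quotient has order `p`.
-/

set_option autoImplicit false
set_option linter.unusedSectionVars false
set_option linter.style.haveILetI false

open scoped Pointwise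

namespace Cfsg.Agent.Lib.Transfer.CoprimeSizes

open Cfsg.Agent.Lib.Transfer.TwoGClassSizes

universe u

/-- Reindexing a product over residues modulo `q`. -/
theorem prod_reindex' {M : Type*} [CommMonoid M] {q k : ℕ} (hq : 0 < q) (hk : k.Coprime q)
    (f : ℕ → M) (hf : ∀ n, f n = f (n % q)) :
    ∏ i ∈ Finset.range q, f (i * k) = ∏ i ∈ Finset.range q, f i := by
  have hmaps : Set.MapsTo (fun i => (i * k) % q) (Finset.range q : Set ℕ) (Finset.range q : Set ℕ) := by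
    intro i _
    simp only [Finset.coe_range, Set.mem_Iio]
    exact Nat.mod_lt _ hq
  have hinj : Set.InjOn (fun i => (i * k) % q) (Finset.range q : Set ℕ) := by
    intro i hi j hj hij
    simp only [Finset.coe_range, Set.mem_Iio] at hi hj
    have h1 : i * k ≡ j * k [MOD q] := hij
    have h2 : i ≡ j [MOD q] := Nat.ModEq.cancel_right_of_coprime (by rwa [Nat.coprime_comm] at hk) h1
    exact Nat.ModEq.eq_of_lt_of_lt h2 hi hj
  refine Finset.prod_nbij (fun i => (i * k) % q) (fun i hi => ?_) hinj ?_ (fun i _ => hf _)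
  · exact hmaps (by exact_mod_cast hi)
  · exact Finset.surjOn_of_injOn_of_card_le _ hmaps hinj le_rfl

/-- The classical fact: an elementary abelian group of rank two has no action with fixed points in
`W` only. -/
theorem no_fpf_pair_mod {V : Type*} [CommGroup V] (W : Subgroup V) {q : ℕ} (hq : q.Prime)
    (σ τ : MulAut V) (hcomm : σ * τ = τ * σ) (hσ : σ ^ q = 1) (hτ : τ ^ q = 1)
    (hσW : ∀ w ∈ W, σ w ∈ W)
    (h1 : ∀ (i : ℕ) (v : V), (σ * τ ^ i) v = v → v ∈ W) (h2 : ∀ v : V, τ v = v → v ∈ W) (v : V) :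
    v ^ q ∈ W := by
  have hcm : Commute σ τ := hcomm
  have norm_fixed : ∀ ρ : MulAut V, ρ ^ q = 1 → ∀ w : V,
      ρ (∏ k ∈ Finset.range q, (ρ ^ k) w) = ∏ k ∈ Finset.range q, (ρ ^ k) w := by
    intro ρ hρ w
    rw [map_prod]
    have h3 : ∀ k, ρ ((ρ ^ k) w) = (ρ ^ (k + 1)) w := by
      intro k
      rw [pow_succ']
      rfl
    simp only [h3]
    have h4 := Finset.prod_range_succ' (fun k => (ρ ^ k) w) q
    have h5 := Finset.prod_range_succ (fun k => (ρ ^ k) w) q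
    rw [h4] at h5
    simp only [hρ, pow_zero] at h5
    exact mul_right_cancel h5
  have hN1 : ∀ (i : ℕ) (w : V), ∏ k ∈ Finset.range q, ((σ * τ ^ i) ^ k) w ∈ W := by
    intro i w
    apply h1 i
    apply norm_fixed
    rw [(hcm.pow_right i).mul_pow, hσ, ← pow_mul, mul_comm, pow_mul, hτ, one_pow, one_mul]
  have hN2 : ∀ w : V, ∏ j ∈ Finset.range q, (τ ^ j) w ∈ W := fun w => h2 _ (norm_fixed τ hτ w)
  have hτmod : ∀ (n : ℕ) (w : V), (τ ^ n) w = (τ ^ (n % q)) w := by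
    intro n w
    conv_lhs => rw [← Nat.div_add_mod n q, pow_add, pow_mul, hτ, one_pow, one_mul]
  have hre : ∀ k, 0 < k → k < q → ∀ w : V, ∏ i ∈ Finset.range q, (τ ^ (i * k)) w ∈ W := by
    intro k hk0 hkq w
    have hcop : k.Coprime q := by
      rw [Nat.coprime_comm, hq.coprime_iff_not_dvd]
      exact Nat.not_dvd_of_pos_of_lt hk0 hkq
    rw [prod_reindex' hq.pos hcop (fun n => (τ ^ n) w) (fun n => hτmod n w)]
    exact hN2 w
  have hexp : ∀ i k : ℕ, (σ * τ ^ i) ^ k = σ ^ k * τ ^ (i * k) := by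
    intro i k
    rw [(hcm.pow_right i).mul_pow, ← pow_mul]
  have hσWk : ∀ (k : ℕ), ∀ w ∈ W, (σ ^ k) w ∈ W := by
    intro k
    induction k with
    | zero => intro w hw; simpa using hw
    | succ k ih =>
      intro w hw
      rw [pow_succ']
      exact hσW _ (ih w hw)
  have hmain : ∏ k ∈ Finset.range q, (σ ^ k) (∏ i ∈ Finset.range q, (τ ^ (i * k)) v) ∈ W := by
    simp only [map_prod]
    rw [Finset.prod_comm]
    apply Subgroup.prod_mem
    intro i _
    have := hN1 i v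
    simpa only [hexp, MulAut.mul_apply] using this
  obtain ⟨q', hq'⟩ : ∃ q', q = q' + 1 := ⟨q - 1, by have := hq.pos; omega⟩
  rw [hq', Finset.prod_range_succ', ← hq'] at hmain
  have hone : ∏ k ∈ Finset.range q', (σ ^ (k + 1)) (∏ i ∈ Finset.range q, (τ ^ (i * (k + 1))) v) ∈ W := by
    apply Subgroup.prod_mem
    intro k hk
    exact hσWk _ _ (hre (k + 1) (Nat.succ_pos _) (by rw [Finset.mem_range] at hk; omega) v)
  have h3 := W.mul_mem (W.inv_mem hone) hmain
  rw [inv_mul_cancel_left] at h3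
  simpa using h3

section ConjHom

variable {G : Type*} [Group G]

/-- Conjugation action of a subgroup `T` on a subgroup `Y` it normalizes. -/
def conjHom (T Y : Subgroup G) (h : ∀ b ∈ T, ∀ y ∈ Y, b * y * b⁻¹ ∈ Y) : T →* MulAut Y where
  toFun b :=
    { toFun := fun y => ⟨(b : G) * y * (b : G)⁻¹, h b b.2 y y.2⟩
      invFun := fun y => ⟨(b : G)⁻¹ * y * (b : G)⁻¹⁻¹, h (b : G)⁻¹ (T.inv_mem b.2) y y.2⟩
      left_inv := fun y => Subtype.ext (by simp only []; group)
      right_inv := fun y => Subtype.ext (by simp only []; group)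
      map_mul' := fun x y => Subtype.ext (by
        show (b : G) * ((x : G) * y) * (b : G)⁻¹ = ((b : G) * x * (b : G)⁻¹) * ((b : G) * y * (b : G)⁻¹)
        group) }
  map_one' := by
    ext y
    simp
  map_mul' a b := by
    ext y
    show ((a : G) * b) * y * ((a : G) * b)⁻¹ = (a : G) * ((b : G) * y * (b : G)⁻¹) * (a : G)⁻¹
    group

theorem conjHom_apply {T Y : Subgroup G} {h : ∀ b ∈ T, ∀ y ∈ Y, b * y * b⁻¹ ∈ Y} (b : T) (y : Y) :
    ((conjHom T Y h b y : Y) : G) = (b : G) * y * (b : G)⁻¹ := rfl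

/-- The commutator map `b ↦ x⁻¹ (b x b⁻¹)` with values in the centre is a homomorphism. -/
def thetaHom (T : Subgroup G) (x : G) (h : ∀ b ∈ T, x⁻¹ * (b * x * b⁻¹) ∈ Subgroup.center G) : T →* G :=
  MonoidHom.mk' (fun b => x⁻¹ * ((b : G) * x * (b : G)⁻¹)) (by
    intro a b
    have hb := Subgroup.mem_center_iff.mp (h b b.2)
    set t := x⁻¹ * ((b : G) * x * (b : G)⁻¹) with ht
    have e1 : (b : G) * x * (b : G)⁻¹ = x * t := by rw [ht]; group
    show x⁻¹ * (((a : G) * b) * x * ((a : G) * b)⁻¹) = (x⁻¹ * ((a : G) * x * (a : G)⁻¹)) * t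
    have e2 : ((a : G) * b) * x * ((a : G) * b)⁻¹ = (a : G) * ((b : G) * x * (b : G)⁻¹) * (a : G)⁻¹ := by
      group
    rw [e2, e1]
    have e3 : (a : G) * (x * t) * (a : G)⁻¹ = (a : G) * x * ((a : G)⁻¹ * (a : G)) * (t * (a : G)⁻¹) := by
      group
    rw [e3, inv_mul_cancel, mul_one, ← (hb (a : G)⁻¹)]
    group)

theorem thetaHom_apply {T : Subgroup G} {x : G} {h : ∀ b ∈ T, x⁻¹ * (b * x * b⁻¹) ∈ Subgroup.center G}
    (b : T) : thetaHom T x h b = x⁻¹ * ((b : G) * x * (b : G)⁻¹) := rfl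

theorem thetaHom_eq_one_iff {T : Subgroup G} {x : G}
    {h : ∀ b ∈ T, x⁻¹ * (b * x * b⁻¹) ∈ Subgroup.center G} (b : T) :
    thetaHom T x h b = 1 ↔ (b : G) ∈ cz x := by
  rw [thetaHom_apply, mem_cz, inv_mul_eq_one]
  constructor
  · intro h1
    have h2 : (b : G) * x = x * b := by
      conv_rhs => rw [h1]
      group
    exact h2.symm
  · intro h1
    rw [← h1]
    group

theorem conj_eq_mul_theta {T : Subgroup G} {x : G}
    {h : ∀ b ∈ T, x⁻¹ * (b * x * b⁻¹) ∈ Subgroup.center G} (b : T) :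
    (b : G) * x * (b : G)⁻¹ = x * thetaHom T x h b := by
  rw [thetaHom_apply]
  group

end ConjHom

section FreeRank

variable {G : Type u} [Group G] [Finite G] {p : ℕ} [hp : Fact p.Prime]

/-- If `T/C_T(x)` embeds in the centre via `θ` and `x^p` has the same centralizer in `T` as `x` unless
central, then `x^p` is central. -/
theorem pow_mem_center_of {T : Subgroup G} (hT : IsPGroup p T) {x : G}
    (hθ : ∀ b ∈ T, x⁻¹ * (b * x * b⁻¹) ∈ Subgroup.center G)
    (hne : ¬ T ≤ cz x)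
    (hpow : x ^ p ∉ Subgroup.center G → ∀ b ∈ T, b ∈ cz (x ^ p) → b ∈ cz x) :
    x ^ p ∈ Subgroup.center G := by
  classical
  by_contra hcon
  obtain ⟨b₀, hb₀, hb₀x⟩ := SetLike.not_le_iff_exists.mp hne
  obtain ⟨l, hl⟩ := exists_pow_of_isPGroup hT hb₀
  have hex : ∃ k : ℕ, b₀ ^ p ^ k ∈ cz x := ⟨l, by rw [hl]; exact Subgroup.one_mem _⟩
  let k := Nat.find hex
  have hk : b₀ ^ p ^ k ∈ cz x := Nat.find_spec hex
  have hk0 : k ≠ 0 := by
    intro h
    rw [h] at hk
    simp at hk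
    exact hb₀x hk
  obtain ⟨j, hj⟩ : ∃ j, k = j + 1 := ⟨k - 1, by omega⟩
  have hjm : b₀ ^ p ^ j ∉ cz x := Nat.find_min hex (by omega : j < k)
  set b := b₀ ^ p ^ j with hb
  have hbT : b ∈ T := T.pow_mem hb₀ _
  have hbp : b ^ p ∈ cz x := by
    rw [hb, ← pow_mul, ← pow_succ, ← hj]
    exact hk
  have h1 : thetaHom T x hθ ⟨b, hbT⟩ ^ p = 1 := by
    rw [← map_pow]
    rw [thetaHom_eq_one_iff]
    simpa using hbp
  have h2 := conj_eq_mul_theta (h := hθ) (⟨b, hbT⟩ : T)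
  have hcomm : Commute x (thetaHom T x hθ ⟨b, hbT⟩) :=
    (Subgroup.mem_center_iff.mp (hθ b hbT) x)
  have h3 : b * x ^ p * b⁻¹ = x ^ p := by
    rw [← conj_pow]
    have h4 : b * x * b⁻¹ = x * thetaHom T x hθ ⟨b, hbT⟩ := h2
    rw [h4, hcomm.mul_pow, h1, mul_one]
  apply hjm
  apply hpow hcon b hbT
  rw [mem_cz]
  have h5 : b * x ^ p = x ^ p * b := by
    conv_rhs => rw [← h3]
    group
  exact h5.symm

/-- The main rank-one lemma. -/
theorem free_rank {T Y : Subgroup G} (hT : IsPGroup p T) {x : G}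
    (hθ : ∀ b ∈ T, x⁻¹ * (b * x * b⁻¹) ∈ Subgroup.center G)
    (hne : ¬ T ≤ cz x)
    (hpow : x ^ p ∉ Subgroup.center G → ∀ b ∈ T, b ∈ cz (x ^ p) → b ∈ cz x)
    (hYc : ∀ a ∈ Y, ∀ b ∈ Y, a * b = b * a)
    (hYp : ∀ y ∈ Y, (orderOf y).Coprime p)
    (hYn : ∀ b ∈ T, ∀ y ∈ Y, b * y * b⁻¹ ∈ Y)
    (hcent : ∀ b ∈ T, b ∈ cz x → ∀ y ∈ Y, b * y * b⁻¹ = y)
    (hfree : ∀ b ∈ T, b ∉ cz x → ∀ y ∈ Y, b * y * b⁻¹ = y → y ∈ Subgroup.center G)
    (hYne : ∃ y ∈ Y, y ∉ Subgroup.center G) :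
    (cz x).relIndex T = p := by
  classical
  have hxp := pow_mem_center_of hT hθ hne hpow
  let θ := thetaHom T x hθ
  have hθ1 : ∀ b : T, θ b = 1 ↔ (b : G) ∈ cz x := fun b => thetaHom_eq_one_iff b
  have hker : θ.ker = (cz x).subgroupOf T := by
    ext b
    rw [MonoidHom.mem_ker, hθ1, Subgroup.mem_subgroupOf]
  have hcard : Nat.card θ.range = (cz x).relIndex T := by
    rw [← Subgroup.index_ker, hker]
    rfl
  have hrc : ∀ b : T, θ b ∈ Subgroup.center G := fun b => hθ b b.2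
  have hcomm : ∀ a b : T, θ a * θ b = θ b * θ a := fun a b =>
    (Subgroup.mem_center_iff.mp (hrc a) (θ b)).symm
  -- exponent `p`
  have hexp : ∀ b : T, θ b ^ p = 1 := by
    intro b
    have h2 : (b : G) * x * (b : G)⁻¹ = x * θ b := conj_eq_mul_theta b
    have hcx : Commute x (θ b) := (Subgroup.mem_center_iff.mp (hrc b) x)
    have h3 : (b : G) * x ^ p * (b : G)⁻¹ = x ^ p := by
      have := (Subgroup.mem_center_iff.mp hxp (b : G))
      rw [this]
      group
    rw [← conj_pow, h2, hcx.mul_pow] at h3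
    exact mul_left_cancel (h3.trans (mul_one _).symm)
  by_contra hrel
  -- pick independent elements
  obtain ⟨b₀, hb₀, hb₀x⟩ := SetLike.not_le_iff_exists.mp hne
  let g₁ : T := ⟨b₀, hb₀⟩
  have hc1 : θ g₁ ≠ 1 := fun h => hb₀x ((hθ1 g₁).mp h)
  have hord : orderOf (θ g₁) = p := orderOf_eq_prime (hexp g₁) hc1
  have hc1mem : ∃ g₂ : T, θ g₂ ∉ Subgroup.zpowers (θ g₁) := by
    by_contra hcon
    push Not at hcon
    apply hrel
    rw [← hcard]
    have h4 : θ.range = Subgroup.zpowers (θ g₁) := by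
      apply le_antisymm
      · rintro _ ⟨b, rfl⟩
        exact hcon b
      · rw [Subgroup.zpowers_le]
        exact ⟨g₁, rfl⟩
    rw [h4, Nat.card_zpowers, hord]
  obtain ⟨g₂, hg₂⟩ := hc1mem
  have hc2 : θ g₂ ≠ 1 := fun h => hg₂ (by rw [h]; exact Subgroup.one_mem _)
  -- independence
  have hind : ∀ i : ℕ, θ (g₁ * g₂ ^ i) ≠ 1 := by
    intro i h
    rw [map_mul, map_pow] at h
    have h5 : θ g₂ ^ i = (θ g₁)⁻¹ := eq_inv_of_mul_eq_one_right h
    by_cases hpi : p ∣ i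
    · obtain ⟨c, rfl⟩ := hpi
      rw [pow_mul, hexp g₂, one_pow] at h5
      exact hc1 (inv_eq_one.mp h5.symm)
    · have hco : i.Coprime (orderOf (θ g₂)) := by
        rw [orderOf_eq_prime (hexp g₂) hc2, Nat.coprime_comm]
        exact (Nat.Prime.coprime_iff_not_dvd hp.out).mpr hpi
      obtain ⟨k, hk⟩ := exists_pow_eq_self_of_coprime hco
      apply hg₂
      rw [← hk, h5]
      exact Subgroup.pow_mem _ (Subgroup.inv_mem _ (Subgroup.mem_zpowers _)) _
  -- the automorphisms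
  let Φ := conjHom T Y hYn
  have hΦθ : ∀ a b : T, θ a = θ b → Φ a = Φ b := by
    intro a b hab
    ext y
    have h6 : θ (b⁻¹ * a) = 1 := by
      rw [map_mul, map_inv, hab, inv_mul_cancel]
    have h7 := hcent _ (b⁻¹ * a).2 ((hθ1 _).mp h6) y y.2
    change (b : G)⁻¹ * (a : G) * y * ((b : G)⁻¹ * (a : G))⁻¹ = y at h7
    show (a : G) * y * (a : G)⁻¹ = (b : G) * y * (b : G)⁻¹
    calc (a : G) * y * (a : G)⁻¹
        = (b : G) * ((b : G)⁻¹ * (a : G) * y * ((b : G)⁻¹ * (a : G))⁻¹) * (b : G)⁻¹ := by group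
      _ = _ := by rw [h7]
  letI : CommGroup Y := { (inferInstance : Group Y) with
    mul_comm := fun a b => Subtype.ext (hYc a a.2 b b.2) }
  let W : Subgroup Y := (Subgroup.center G).subgroupOf Y
  have key : ∀ v : Y, v ^ p ∈ W := by
    apply no_fpf_pair_mod W hp.out (Φ g₁) (Φ g₂)
    · rw [← map_mul, ← map_mul]
      apply hΦθ
      rw [map_mul, map_mul, hcomm]
    · rw [← map_pow, ← map_one Φ]
      apply hΦθ
      rw [map_pow, hexp, map_one]
    · rw [← map_pow, ← map_one Φ]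
      apply hΦθ
      rw [map_pow, hexp, map_one]
    · intro w hw
      have hw' : (w : G) ∈ Subgroup.center G := hw
      show (Φ g₁ w : G) ∈ Subgroup.center G
      have : (Φ g₁ w : G) = w := by
        show (g₁ : G) * w * (g₁ : G)⁻¹ = w
        rw [(Subgroup.mem_center_iff.mp hw' (g₁ : G))]
        group
      rw [this]
      exact hw'
    · intro i v hv
      rw [← map_pow, ← map_mul] at hv
      have hv' : ((g₁ * g₂ ^ i : T) : G) * v * ((g₁ * g₂ ^ i : T) : G)⁻¹ = v :=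
        congrArg Subtype.val hv
      exact hfree _ (g₁ * g₂ ^ i).2 (fun h => hind i ((hθ1 _).mpr h)) v v.2 hv'
    · intro v hv
      have hv' : (g₂ : G) * v * (g₂ : G)⁻¹ = v := congrArg Subtype.val hv
      exact hfree _ g₂.2 (fun h => hc2 ((hθ1 _).mpr h)) v v.2 hv'
  obtain ⟨y, hy, hyc⟩ := hYne
  apply hyc
  have h8 := key ⟨y, hy⟩
  have h9 : y ^ p ∈ Subgroup.center G := by simpa [W, Subgroup.mem_subgroupOf] using h8
  have hco : p.Coprime (orderOf y) := (hYp y hy).symm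
  obtain ⟨k, hk⟩ := exists_pow_eq_self_of_coprime hco
  rw [← hk]
  exact Subgroup.pow_mem _ h9 _

end FreeRank

section Misc

variable {G : Type*} [Group G] [Finite G]

/-- A normal subgroup of a `p`-group `S` not inside the centre of `G` contains a non-central element
central modulo the centre of `G`. (`N` only normalized by `S`.) -/
theorem exists_central_mod' {s : ℕ} [hs : Fact s.Prime] {S N : Subgroup G}
    (hS : IsPGroup s S) (hN : ∀ b ∈ S, ∀ y ∈ N, b * y * b⁻¹ ∈ N)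
    {t : G} (htS : t ∈ S) (htN : t ∈ N) (htc : t ∉ Subgroup.center G) :
    ∃ x ∈ S, x ∈ N ∧ x ∉ Subgroup.center G ∧ ∀ g ∈ S, x⁻¹ * (g * x * g⁻¹) ∈ Subgroup.center G := by
  let Zs : Subgroup S := (Subgroup.center G).subgroupOf S
  haveI : Zs.Normal := Subgroup.normal_subgroupOf
  have hQ : IsPGroup s (S ⧸ Zs) := hS.to_quotient Zs
  haveI hN' : (N.subgroupOf S).Normal := by
    constructor
    intro n hn g
    rw [Subgroup.mem_subgroupOf] at hn ⊢
    exact hN g g.2 n hn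
  let K : Subgroup (S ⧸ Zs) := (N.subgroupOf S).map (QuotientGroup.mk' Zs)
  haveI hKn : K.Normal :=
    Subgroup.Normal.map hN' _ (QuotientGroup.mk'_surjective Zs)
  have hne : K ≠ ⊥ := by
    intro h
    have h1 : QuotientGroup.mk' Zs (⟨t, htS⟩ : S) ∈ K :=
      Subgroup.mem_map_of_mem _ (by simpa [Subgroup.mem_subgroupOf] using htN)
    rw [h, Subgroup.mem_bot] at h1
    have h2 : (⟨t, htS⟩ : S) ∈ Zs := (QuotientGroup.eq_one_iff _).mp h1
    exact htc (by simpa [Zs, Subgroup.mem_subgroupOf] using h2)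
  have h3 := Cfsg.Agent.Lib.Involutions2.NormalFour.inf_center_ne_bot hQ K hne
  obtain ⟨⟨q, hq⟩, hq1'⟩ := Subgroup.ne_bot_iff_exists_ne_one.mp h3
  have hq1 : q ≠ 1 := fun h => hq1' (Subtype.ext h)
  obtain ⟨hqK, hqZ⟩ := Subgroup.mem_inf.mp hq
  obtain ⟨x, hxN, rfl⟩ := hqK
  refine ⟨x, x.2, by simpa [Subgroup.mem_subgroupOf] using hxN, ?_, ?_⟩
  · intro h
    apply hq1
    exact (QuotientGroup.eq_one_iff _).mpr (by simpa [Zs, Subgroup.mem_subgroupOf] using h)
  · intro g hg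
    have h4 := Subgroup.mem_center_iff.mp hqZ (QuotientGroup.mk' Zs (⟨g, hg⟩ : S))
    rw [← map_mul, ← map_mul] at h4
    have h5 : QuotientGroup.mk' Zs ((⟨g, hg⟩ : S) * x * (⟨g, hg⟩ : S)⁻¹) = QuotientGroup.mk' Zs x := by
      rw [map_mul, map_mul, map_inv, ← map_mul, h4, map_mul]
      group
    have h6 : x⁻¹ * ((⟨g, hg⟩ : S) * x * (⟨g, hg⟩ : S)⁻¹) ∈ Zs :=
      QuotientGroup.eq.mp h5.symm
    simpa [Zs, Subgroup.mem_subgroupOf] using h6

/-- A subgroup of index `p` in a `p`-group is normal. -/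
theorem normal_of_relIndex {p : ℕ} [hp : Fact p.Prime] {A A₁ : Subgroup G} (hA : IsPGroup p A)
    (hrel : A₁.relIndex A = p) : (A₁.subgroupOf A).Normal := by
  apply Subgroup.normal_of_index_eq_minFac_card
  change A₁.relIndex A = _
  rw [hrel]
  have hA1 : Nat.card A ≠ 1 := by
    intro h
    have : A₁.relIndex A ∣ Nat.card A := Subgroup.index_dvd_card _
    rw [hrel, h] at this
    exact hp.out.one_lt.ne' (Nat.dvd_one.mp this)
  obtain ⟨k, hk⟩ := IsPGroup.iff_card.mp hA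
  rw [hk] at hA1 ⊢
  have hk0 : k ≠ 0 := by
    rintro rfl
    simp at hA1
  rw [Nat.Prime.pow_minFac hp.out hk0]

theorem conj_mem_of_relIndex {p : ℕ} [hp : Fact p.Prime] {A A₁ : Subgroup G} (hA : IsPGroup p A)
    (hrel : A₁.relIndex A = p) {b c : G} (hb : b ∈ A) (hc : c ∈ A) (hc' : c ∈ A₁) :
    b * c * b⁻¹ ∈ A₁ := by
  haveI := normal_of_relIndex hA hrel
  have h1 : (⟨c, hc⟩ : A) ∈ A₁.subgroupOf A := by rwa [Subgroup.mem_subgroupOf]
  have h2 := (inferInstance : (A₁.subgroupOf A).Normal).conj_mem _ h1 ⟨b, hb⟩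
  rwa [Subgroup.mem_subgroupOf] at h2

/-- Every element of `A` is `g^k c`, `c ∈ A₁`, if `|A : A₁| = p`, `g ∉ A₁`. -/
theorem exists_pow_mul {p : ℕ} [hp : Fact p.Prime] {A A₁ : Subgroup G} (hA : IsPGroup p A)
    (hrel : A₁.relIndex A = p) {g : G} (hg : g ∈ A) (hg' : g ∉ A₁) {b : G} (hb : b ∈ A) :
    ∃ k : ℕ, ∃ c ∈ A₁, b = g ^ k * c := by
  haveI := normal_of_relIndex hA hrel
  let B := A₁.subgroupOf A
  have hcard : Nat.card (A ⧸ B) = p := by
    rw [← Subgroup.index_eq_card]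
    exact hrel
  have hg1 : ((⟨g, hg⟩ : A) : A ⧸ B) ≠ 1 := by
    rw [Ne, QuotientGroup.eq_one_iff, Subgroup.mem_subgroupOf]
    exact hg'
  have h1 := mem_zpowers_of_prime_card hcard (g' := ((⟨b, hb⟩ : A) : A ⧸ B)) hg1
  rw [← mem_powers_iff_mem_zpowers] at h1
  obtain ⟨k, hk⟩ := h1
  refine ⟨k, g⁻¹ ^ k * b, ?_, ?_⟩
  · have h2 : (((⟨g, hg⟩ : A) ^ k : A) : A ⧸ B) = ((⟨b, hb⟩ : A) : A ⧸ B) := by
      rw [QuotientGroup.mk_pow]
      exact hk
    rw [QuotientGroup.eq, Subgroup.mem_subgroupOf] at h2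
    simpa using h2
  · simp

theorem pow_mem_of_relIndex {p : ℕ} [hp : Fact p.Prime] {A A₁ : Subgroup G} (hA : IsPGroup p A)
    (hrel : A₁.relIndex A = p) {b : G} (hb : b ∈ A) : b ^ p ∈ A₁ := by
  haveI := normal_of_relIndex hA hrel
  let B := A₁.subgroupOf A
  have hcard : Nat.card (A ⧸ B) = p := by
    rw [← Subgroup.index_eq_card]
    exact hrel
  have h1 : ((⟨b, hb⟩ : A) : A ⧸ B) ^ p = 1 := by
    rw [← hcard]
    exact pow_card_eq_one'
  rw [← QuotientGroup.mk_pow, QuotientGroup.eq_one_iff, Subgroup.mem_subgroupOf] at h1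
  simpa using h1

/-- Conjugating a `p`-subgroup into a Sylow subgroup. -/
theorem exists_conj_into {p : ℕ} [hp : Fact p.Prime] (P : Sylow p G) {Y : Subgroup G}
    (hY : IsPGroup p Y) : ∃ a : G, Y.map (MulAut.conj a).toMonoidHom ≤ (P : Subgroup G) := by
  obtain ⟨T, hT⟩ := hY.exists_le_sylow
  obtain ⟨a, ha⟩ := MulAction.exists_smul_eq G T P
  refine ⟨a, ?_⟩
  rintro _ ⟨w, hw, rfl⟩
  rw [← ha]
  exact Subgroup.mem_map_of_mem _ (hT hw)

end Misc

end Cfsg.Agent.Lib.Transfer.CoprimeSizes
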