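import Mathlib
import Cfsg.Agent.Lib.Transfer.CoprimeSizes2

/-!
# Groups with class sizes `1, m, m n`: `m` a power of `p`, and case I

If `m` is a power of `p`, then some non-central `p`-element has class size `m`.
-/

set_option autoImplicit false
set_option linter.unusedSectionVars false
set_option linter.style.haveILetI false

open scoped Pointwise

namespace Cfsg.Agent.Lib.Transfer.CoprimeSizes

open Cfsg.Agent.Lib.Transfer.ClassSize
  (eq_top_of_forall_conj_mem exists_sylow_of_not_dvd_index centralizer_mul_of_coprime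
    normal_of_forall_not_dvd_index)
open Cfsg.Agent.Lib.Transfer.TwoGClassSizes
open Cfsg.Agent.Lib.Core.Residual (exists_pPart_pPrimePart)

variable {G : Type*} [Group G]

/-- The order of a Sylow `p`-subgroup of `C(g)`, `g` non-central. -/
noncomputable def rho (G : Type*) [Group G] (p m : ℕ) : ℕ := ordProj[p] (Nat.card G) / m

theorem ordProj_card_of_isPGroup {p : ℕ} [hp : Fact p.Prime] {K : Type*} [Group K] [Finite K]
    (h : IsPGroup p K) : ordProj[p] (Nat.card K) = Nat.card K := by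
  obtain ⟨k, hk⟩ := IsPGroup.iff_card.mp h
  rw [hk, hp.out.factorization_pow]
  simp

/-- Elements of order prime to `p` raised to a `p`-power trivial. -/
theorem eq_one_of_pow_of_coprime {p l : ℕ} {y : G} (hy : (orderOf y).Coprime p) (h : y ^ p ^ l = 1) :
    y = 1 := by
  have h1 : orderOf y ∣ p ^ l := orderOf_dvd_of_pow_eq_one h
  have h2 : (orderOf y).Coprime (p ^ l) := Nat.Coprime.pow_right _ hy
  exact orderOf_eq_one_iff.mp (Nat.Coprime.eq_one_of_dvd h2 h1)

/-- A `p`-element is fixed if it moves `u` by a commuting `p'`-element. -/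
theorem eq_one_of_conj_eq_mul {c u y : G} {p l : ℕ} (h : c * u * c⁻¹ = u * y) (hcy : c * y = y * c)
    (hc : c ^ p ^ l = 1) (hy : (orderOf y).Coprime p) : y = 1 := by
  have hind : ∀ j : ℕ, c ^ j * u * (c ^ j)⁻¹ = u * y ^ j := by
    intro j
    induction j with
    | zero => simp
    | succ j ih =>
      have hcomm : Commute c y := hcy
      have e : c ^ (j + 1) * u * (c ^ (j + 1))⁻¹ = c ^ j * (c * u * c⁻¹) * (c ^ j)⁻¹ := by
        rw [pow_succ]; group
      rw [e, h]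
      have e2 : c ^ j * (u * y) * (c ^ j)⁻¹ = (c ^ j * u * (c ^ j)⁻¹) * (c ^ j * y * (c ^ j)⁻¹) := by
        group
      rw [e2, ih, (hcomm.pow_left j).eq, mul_inv_cancel_right, pow_succ, mul_assoc]
  have h1 := hind (p ^ l)
  rw [hc, one_mul, inv_one, mul_one] at h1
  have h2 : y ^ p ^ l = 1 := by
    have := mul_left_cancel (a := u) (b := 1) (c := y ^ p ^ l) (by rw [mul_one]; exact h1)
    exact this.symm
  exact eq_one_of_pow_of_coprime hy h2

section Hyp3

variable [Finite G] {m n p : ℕ} [hp : Fact p.Prime]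

namespace Hyp

variable (H : Hyp G m n) (hpm : p ∣ m) (hm' : ordProj[p] m = m)
include H hpm hm'

theorem rho_spec {g : G} (hg : g ∉ Subgroup.center G) :
    ordProj[p] (Nat.card (cz g)) = rho G p m := by
  have h1 := H.ordProj_cz hp.out hpm hg
  rw [hm'] at h1
  rw [rho, ← h1, Nat.mul_div_cancel _ (by have := H.hm; omega)]

theorem exists_noncentral : ∃ g : G, g ∉ Subgroup.center G := by
  obtain ⟨g, hg⟩ := H.ex_m
  refine ⟨g, fun h => ?_⟩
  rw [(index_cz_eq_one_iff g).mpr h] at hg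
  exact H.hm.ne hg

theorem card_sylow (P : Sylow p G) : Nat.card (P : Subgroup G) = rho G p m * m := by
  obtain ⟨g, hg⟩ := H.exists_noncentral hpm hm'
  have h1 := H.ordProj_cz hp.out hpm hg
  rw [hm', H.rho_spec hpm hm' hg] at h1
  rw [P.card_eq_multiplicity, h1]

theorem rho_pos : 0 < rho G p m := by
  obtain ⟨g, hg⟩ := H.exists_noncentral hpm hm'
  rw [← H.rho_spec hpm hm' hg]
  exact pow_pos hp.out.pos _

theorem card_le_rho {g : G} (hg : g ∉ Subgroup.center G) {Y : Subgroup G} (hY : Y ≤ cz g)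
    (hYp : IsPGroup p Y) : Nat.card Y ≤ rho G p m := by
  rw [← H.rho_spec hpm hm' hg]
  exact card_le_ordProj hY hYp

theorem rho_le_cz (g : G) : rho G p m ≤ ordProj[p] (Nat.card (cz g)) := by
  obtain ⟨g', hg'⟩ := H.exists_noncentral hpm hm'
  rw [← H.rho_spec hpm hm' hg']
  exact H.ordProj_cz_le hp.out hpm hg' g

theorem exists_le_rho (g : G) {Y₀ : Subgroup G} (hle : Y₀ ≤ cz g) (hY₀ : IsPGroup p Y₀) :
    ∃ Y : Subgroup G, Y₀ ≤ Y ∧ Y ≤ cz g ∧ IsPGroup p Y ∧ rho G p m ≤ Nat.card Y := by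
  obtain ⟨Y, h1, h2, h3, h4⟩ := exists_sylow_image (p := p) (cz g) Y₀ hle hY₀
  refine ⟨Y, h1, h2, h3, ?_⟩
  rw [h4]
  exact H.rho_le_cz hpm hm' g

theorem card_inf_eq (P : Sylow p G) {g : G} (hg : g ∉ Subgroup.center G) {Y : Subgroup G}
    (hYP : Y ≤ (P : Subgroup G)) (hYg : Y ≤ cz g) (hc : rho G p m ≤ Nat.card Y) :
    Nat.card ((P : Subgroup G) ⊓ cz g : Subgroup G) = rho G p m := by
  apply le_antisymm
  · exact H.card_le_rho hpm hm' hg inf_le_right (P.isPGroup'.to_le inf_le_left)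
  · exact hc.trans (Subgroup.card_le_of_le (le_inf hYP hYg))

theorem relIndex_eq (P : Sylow p G) {C : Subgroup G}
    (hc : Nat.card ((P : Subgroup G) ⊓ C : Subgroup G) = rho G p m) :
    ((P : Subgroup G) ⊓ C).relIndex (P : Subgroup G) = m := by
  have h1 := card_inf_mul_relIndex C (P : Subgroup G)
  rw [inf_comm, hc, H.card_sylow hpm hm' P] at h1
  rw [Subgroup.inf_relIndex_left]
  exact Nat.eq_of_mul_eq_mul_left (H.rho_pos hpm hm') h1

theorem cW_lt_rho : Nat.card (cW G p) < rho G p m := by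
  obtain ⟨P⟩ : Nonempty (Sylow p G) := inferInstance
  obtain ⟨x, hxP, hxc⟩ := H.exists_noncentral_in_sylow hpm P
  have h1 := H.card_cW_lt_of_mem (center_le_cz x) (mem_cz_self x) hxc
    (exists_pow_of_isPGroup P.isPGroup' hxP)
  rwa [H.rho_spec hpm hm' hxc] at h1

theorem exists_noncentral_of_rho_le {C : Subgroup G} (hCp : IsPGroup p C) (hc : rho G p m ≤ Nat.card C) :
    ∃ t ∈ C, t ∉ Subgroup.center G := by
  have h1 : Nat.card (cW G p) < ordProj[p] (Nat.card C) := by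
    rw [ordProj_card_of_isPGroup hCp]
    exact (H.cW_lt_rho hpm hm').trans_le hc
  obtain ⟨t, ht, htc, -⟩ := exists_noncentral_of_lt h1
  exact ⟨t, ht, htc⟩

/-- A `P`-invariant `C(x)`: the intersection has order `ρ` and index `m` in `P`. -/
theorem card_inf_of_normalizes' {x : G} (hxc : x ∉ Subgroup.center G) (P : Sylow p G)
    (hP : ∀ b ∈ (P : Subgroup G), ∀ d ∈ cz x, b * d * b⁻¹ ∈ cz x) :
    Nat.card ((P : Subgroup G) ⊓ cz x : Subgroup G) = rho G p m := by
  rw [← H.rho_spec hpm hm' hxc]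
  exact (H.card_inf_of_normalizes hpm hxc P hP).1

section CaseI

variable (hI : ∀ x : G, (∃ k : ℕ, x ^ p ^ k = 1) → x ∉ Subgroup.center G → (cz x).index = m * n)
include hI

theorem exists_u : ∃ u : G, (orderOf u).Coprime p ∧ (cz u).index = m := by
  obtain ⟨g₁, hg₁⟩ := H.ex_m
  obtain ⟨a, b, hab, hc, hak, hb, ha', -⟩ := exists_pPart_pPrimePart p g₁ (isOfFinOrder_of_finite g₁)
  have hac : a ∈ Subgroup.center G := by
    by_contra hac
    have h1 := hI a hak hac
    have h2 := Subgroup.index_dvd_of_le (cz_le_of_mem_zpowers ha')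
    rw [h1, hg₁] at h2
    exact H.not_mn_dvd_m h2
  refine ⟨b, hb, ?_⟩
  have h3 : g₁ = b * a := by rw [← hab, hc.eq]
  rw [h3, cz_mul_central hac] at hg₁
  exact hg₁

theorem exists_q : ∃ q : ℕ, ∃ _ : Fact q.Prime, q ≠ p ∧ ∀ x : G, (∃ k : ℕ, x ^ p ^ k = 1) →
    x ∉ Subgroup.center G → ∃ w ∈ cz x, w ∉ Subgroup.center G ∧ ∃ k : ℕ, w ^ q ^ k = 1 := by
  obtain ⟨u, hu, hui⟩ := H.exists_u hpm hm' hI
  have huc : u ∉ Subgroup.center G := by
    intro h
    rw [(index_cz_eq_one_iff u).mpr h] at hui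
    exact H.hm.ne hui
  obtain ⟨s, hs, hsp, t, -, htc, htk⟩ := exists_primary huc hu
  refine ⟨s, hs, hsp, ?_⟩
  obtain ⟨x₀, hx₀, hx₀c, hx₀k⟩ := H.exists_noncentral_p (p := p) hpm htc
  have h1 := H.card_cW_lt_of_mem (center_le_cz x₀) (mem_cz_comm.mp hx₀) htc htk
  intro x hxk hxc
  have h2 : Nat.card (cz x) = Nat.card (cz x₀) := by
    have h3 := Subgroup.card_mul_index (cz x)
    have h4 := Subgroup.card_mul_index (cz x₀)
    rw [hI x hxk hxc] at h3
    rw [hI x₀ hx₀k hx₀c] at h4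
    exact Nat.eq_of_mul_eq_mul_right (Nat.mul_pos (by have := H.hm; omega) (by have := H.hn; omega))
      (h3.trans h4.symm)
  rw [← h2] at h1
  exact exists_noncentral_of_lt h1

/-- In case I, `m = p`. -/
theorem m_eq_p : m = p := by
  obtain ⟨q, hq, hqp, hqx⟩ := H.exists_q hpm hm' hI
  obtain ⟨P⟩ : Nonempty (Sylow p G) := inferInstance
  obtain ⟨t, htP, htc⟩ := H.exists_noncentral_in_sylow hpm P
  obtain ⟨x, hxP, -, hxc, hx⟩ := exists_central_mod (N := ⊤) P.isPGroup' htP trivial htc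
  have hxk := exists_pow_of_isPGroup P.isPGroup' hxP
  obtain ⟨l, hl⟩ := hxk
  have hnorm : ∀ b ∈ (P : Subgroup G), ∀ d ∈ cz x, b * d * b⁻¹ ∈ cz x :=
    fun b hb d hd => conj_mem_cz_of_central (hx b hb) hd
  have hcard := H.card_inf_of_normalizes' hpm hm' hxc P hnorm
  have hrel := H.relIndex_eq hpm hm' P hcard
  rw [Subgroup.inf_relIndex_left] at hrel
  have hxi := hI x ⟨l, hl⟩ hxc
  -- `q`-elements of `C(x)` are central in `C(x)`.
  have hmemY : ∀ t ∈ cz x, (∃ k : ℕ, t ^ q ^ k = 1) → t ∈ pz (cz x) q := by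
    intro t ht htk
    rw [mem_pz]
    refine ⟨ht, ?_, htk⟩
    intro d hd
    obtain ⟨k, hk⟩ := htk
    have h1 := H.le_cz_of_size_mn hxi ht (coprime_of_pow_pow hp.out hq.out hqp.symm hl hk) hd
    exact (mem_cz.mp h1).symm
  have hne : ¬ (P : Subgroup G) ≤ cz x := by
    intro h
    have h1 := Subgroup.relIndex_eq_one.mpr h
    rw [hrel] at h1
    exact H.hm.ne' h1
  have h := free_rank (T := (P : Subgroup G)) (Y := pz (cz x) q) P.isPGroup' hx hne
    (by
      intro hxp b _ hb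
      have h1 : cz x ≤ cz (x ^ p) := cz_le_of_mem_zpowers (Subgroup.npow_mem_zpowers x p)
      have hk : ∃ k : ℕ, (x ^ p) ^ p ^ k = 1 := ⟨l, by rw [← pow_mul, mul_comm, pow_mul, hl, one_pow]⟩
      have h2 := eq_of_le_of_index_eq h1 (by rw [hxi, hI _ hk hxp])
      rw [h2]
      exact hb)
    (fun a ha b hb => (zc_comm _ a ha.1 b hb.1).eq)
    (by
      intro y hy
      obtain ⟨k, hk⟩ := (mem_pz.mp hy).2.2
      exact coprime_of_pow_ne hp.out hq.out hqp.symm hk)
    (by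
      intro b hb y hy
      have hy' := mem_pz.mp hy
      apply hmemY _ (hnorm b hb y hy'.1)
      obtain ⟨k, hk⟩ := hy'.2.2
      refine ⟨k, ?_⟩
      rw [conj_pow, hk]
      group)
    (by
      intro b _ hbx y hy
      have hy' := mem_pz.mp hy
      rw [hy'.2.1 b hbx]
      group)
    (by
      intro b hb hbx y hy hby
      by_contra hyc
      have hy' := mem_pz.mp hy
      have h1 : (P : Subgroup G) ⊓ cz x ≤ (P : Subgroup G) ⊓ cz y := by
        rintro c ⟨hc1, hc2⟩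
        refine Subgroup.mem_inf.mpr ⟨hc1, ?_⟩
        rw [mem_cz]
        exact (hy'.2.1 c hc2).symm
      have h2 : (P : Subgroup G) ⊓ cz x = (P : Subgroup G) ⊓ cz y := by
        apply Subgroup.eq_of_le_of_card_ge h1
        rw [hcard]
        exact H.card_le_rho hpm hm' hyc inf_le_right (P.isPGroup'.to_le inf_le_left)
      have h3 : b ∈ (P : Subgroup G) ⊓ cz y := by
        refine Subgroup.mem_inf.mpr ⟨hb, ?_⟩
        rw [mem_cz]
        have h4 : y * b = b * y := by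
          conv_lhs => rw [← hby]
          group
        exact h4
      rw [← h2] at h3
      exact hbx (Subgroup.mem_inf.mp h3).2)
    (by
      obtain ⟨w, hw, hwc, hwk⟩ := hqx x ⟨l, hl⟩ hxc
      exact ⟨w, hmemY w hw hwk, hwc⟩)
  rw [← hrel, h]

end CaseI

end Hyp

/-- Data attached to a `p'`-element `u` of class size `p` when `|C_P(u)| = ρ`. -/
structure UData (P : Sylow p G) (u : G) : Prop where
  rel : ((P : Subgroup G) ⊓ cz u).relIndex (P : Subgroup G) = p
  conj_eq : ∀ h : G, ∃ b ∈ (P : Subgroup G), h * u * h⁻¹ = b * u * b⁻¹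
  comm : ∀ h : G, u * (h * u * h⁻¹) = (h * u * h⁻¹) * u
  cent : ∀ c ∈ (P : Subgroup G), c ∈ cz u → ∀ h : G, c * (h * u * h⁻¹) = (h * u * h⁻¹) * c

namespace UData

variable {P : Sylow p G} {u : G}

theorem all_comm (U : UData P u) (h h' : G) :
    (h * u * h⁻¹) * (h' * u * h'⁻¹) = (h' * u * h'⁻¹) * (h * u * h⁻¹) := by
  have h1 := U.comm (h⁻¹ * h')
  calc (h * u * h⁻¹) * (h' * u * h'⁻¹)
      = h * (u * ((h⁻¹ * h') * u * (h⁻¹ * h')⁻¹)) * h⁻¹ := by group
    _ = h * (((h⁻¹ * h') * u * (h⁻¹ * h')⁻¹) * u) * h⁻¹ := by rw [h1]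
    _ = _ := by group

/-- `C_P(huh⁻¹) = C_P(u)`. -/
theorem mem_of_comm (U : UData P u) {c : G} (hc : c ∈ (P : Subgroup G)) {h : G}
    (hch : c * (h * u * h⁻¹) = (h * u * h⁻¹) * c) : c ∈ cz u := by
  obtain ⟨b, hb, hbh⟩ := U.conj_eq h
  rw [hbh] at hch
  have hb1 : b⁻¹ * c * b ∈ (P : Subgroup G) ⊓ cz u := by
    refine Subgroup.mem_inf.mpr ⟨?_, ?_⟩
    · exact (P : Subgroup G).mul_mem ((P : Subgroup G).mul_mem ((P : Subgroup G).inv_mem hb) hc) hb
    · rw [mem_cz]
      calc u * (b⁻¹ * c * b) = b⁻¹ * ((b * u * b⁻¹) * c) * b := by group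
        _ = b⁻¹ * (c * (b * u * b⁻¹)) * b := by rw [hch]
        _ = _ := by group
  have h2 := conj_mem_of_relIndex P.isPGroup' U.rel hb
    (Subgroup.mem_inf.mp hb1).1 hb1
  have e : b * (b⁻¹ * c * b) * b⁻¹ = c := by group
  rw [e] at h2
  exact (Subgroup.mem_inf.mp h2).2

end UData

theorem orderOf_conj_coprime {u h : G} (hu : (orderOf u).Coprime p) :
    (orderOf (h * u * h⁻¹)).Coprime p := by
  have : orderOf (h * u * h⁻¹) = orderOf u :=
    orderOf_injective (MulAut.conj h).toMonoidHom (MulAut.conj h).injective u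
  rwa [this]

namespace Hyp

variable {n : ℕ} (H : Hyp G p n)
  (hI : ∀ x : G, (∃ k : ℕ, x ^ p ^ k = 1) → x ∉ Subgroup.center G → (cz x).index = p * n)
include H hI

theorem hm'_self : ordProj[p] p = p := by
  rw [hp.out.factorization_self, pow_one]

/-- Construction of the `U`-data. -/
theorem uData (P : Sylow p G) {u : G} (hu : (orderOf u).Coprime p) (hui : (cz u).index = p)
    (hc : Nat.card ((P : Subgroup G) ⊓ cz u : Subgroup G) = rho G p p) : UData P u := by
  have hpm : p ∣ p := dvd_rfl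
  have hm' : ordProj[p] p = p := H.hm'_self hI
  have hrel := H.relIndex_eq hpm hm' P hc
  have huc : u ∉ Subgroup.center G := by
    intro h
    rw [(index_cz_eq_one_iff u).mpr h] at hui
    exact H.hm.ne hui
  have hconj : ∀ h : G, ∃ b ∈ (P : Subgroup G), h * u * h⁻¹ = b * u * b⁻¹ := by
    intro h
    have hc1 : Nat.card (P : Subgroup G) * Nat.card (cz u) =
        Nat.card G * Nat.card ((P : Subgroup G) ⊓ cz u : Subgroup G) := by
      rw [hc, H.card_sylow hpm hm' P, ← Subgroup.card_mul_index (cz u), hui]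
      ring
    obtain ⟨b, hb, d, hd, rfl⟩ := exists_mul_of_card hc1 h
    refine ⟨b, hb, ?_⟩
    have hd' : d * u = u * d := (mem_cz.mp hd).symm
    calc b * d * u * (b * d)⁻¹ = b * (d * u) * d⁻¹ * b⁻¹ := by group
      _ = b * (u * d) * d⁻¹ * b⁻¹ := by rw [hd']
      _ = _ := by group
  -- central-mod element in `C_P(u)`.
  obtain ⟨t, htN, htc⟩ := H.exists_noncentral_of_rho_le hpm hm'
    (P.isPGroup'.to_le inf_le_left : IsPGroup p ((P : Subgroup G) ⊓ cz u : Subgroup G)) hc.ge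
  obtain ⟨x, hxP, hxN, hxc, hx⟩ := exists_central_mod' (N := (P : Subgroup G) ⊓ cz u) P.isPGroup'
    (fun b hb y hy => conj_mem_of_relIndex P.isPGroup' hrel hb (Subgroup.mem_inf.mp hy).1 hy)
    (Subgroup.mem_inf.mp htN).1 htN htc
  obtain ⟨l, hl⟩ := exists_pow_of_isPGroup P.isPGroup' hxP
  have hxi := hI x ⟨l, hl⟩ hxc
  have hnorm : ∀ b ∈ (P : Subgroup G), ∀ d ∈ cz x, b * d * b⁻¹ ∈ cz x :=
    fun b hb d hd => conj_mem_cz_of_central (hx b hb) hd
  have huD : u ∈ cz x := mem_cz_comm.mp (Subgroup.mem_inf.mp hxN).2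
  -- `p'`-elements central
  have hcentral : ∀ b ∈ (P : Subgroup G), cz x ≤ cz (b * u * b⁻¹) := by
    intro b hb
    apply H.le_cz_of_size_mn hxi (hnorm b hb u huD)
    exact card_inf_of_pow_one hp.out hl (orderOf_conj_coprime hu)
  have hcentral' : cz x ≤ cz u := by
    have := hcentral 1 (Subgroup.one_mem _)
    simpa using this
  have hcardD := H.card_inf_of_normalizes' hpm hm' hxc P hnorm
  have hPD : (P : Subgroup G) ⊓ cz x = (P : Subgroup G) ⊓ cz u := by
    apply Subgroup.eq_of_le_of_card_ge (inf_le_inf_left _ hcentral')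
    rw [hc, hcardD]
  refine ⟨hrel, hconj, ?_, ?_⟩
  · intro h
    obtain ⟨b, hb, hbh⟩ := hconj h
    rw [hbh]
    exact ((mem_cz (x := b * u * b⁻¹)).mp (hcentral b hb huD)).symm
  · intro c hcP hcu h
    obtain ⟨b, hb, hbh⟩ := hconj h
    rw [hbh]
    have h1 : c ∈ (P : Subgroup G) ⊓ cz x := by
      rw [hPD]
      exact Subgroup.mem_inf.mpr ⟨hcP, hcu⟩
    exact (mem_cz.mp (hcentral b hb (Subgroup.mem_inf.mp h1).2)).symm

/-- A `p'`-element commuting with `g ∈ P \ C_P(u)` commutes with all conjugates of `u`. -/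
theorem comm_conj {P : Sylow p G} {u : G} (U : UData P u) {g w : G} (hg : g ∈ (P : Subgroup G))
    (hgu : g ∉ cz u) (hwg : w ∈ cz g) (hw : (orderOf w).Coprime p) (h : G) :
    w * (h * u * h⁻¹) = (h * u * h⁻¹) * w := by
  have hgP1 : g ∉ (P : Subgroup G) ⊓ cz u := fun h1 => hgu (Subgroup.mem_inf.mp h1).2
  have hO : ∀ h : G, ∃ k : ℕ, h * u * h⁻¹ = g ^ k * u * (g ^ k)⁻¹ := by
    intro h
    obtain ⟨b, hb, hbh⟩ := U.conj_eq h
    obtain ⟨k, c, hc, rfl⟩ := exists_pow_mul P.isPGroup' U.rel hg hgP1 hb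
    refine ⟨k, ?_⟩
    rw [hbh]
    have hc' : c * u = u * c := (mem_cz.mp (Subgroup.mem_inf.mp hc).2).symm
    calc g ^ k * c * u * (g ^ k * c)⁻¹ = g ^ k * (c * u) * c⁻¹ * (g ^ k)⁻¹ := by group
      _ = g ^ k * (u * c) * c⁻¹ * (g ^ k)⁻¹ := by rw [hc']
      _ = _ := by group
  have hwgc : Commute w g := (mem_cz.mp hwg).symm
  obtain ⟨k, hk⟩ := hO w
  have hind : ∀ j : ℕ, w ^ j * u * (w ^ j)⁻¹ = g ^ (k * j) * u * (g ^ (k * j))⁻¹ := by
    intro j
    induction j with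
    | zero => simp
    | succ j ih =>
      have e1 : w ^ (j + 1) * u * (w ^ (j + 1))⁻¹ = w * (w ^ j * u * (w ^ j)⁻¹) * w⁻¹ := by
        rw [pow_succ']; group
      have e2 : g ^ (k * (j + 1)) = g ^ (k * j) * g ^ k := by
        rw [mul_add, mul_one, pow_add]
      rw [e1, ih, e2]
      have e3 : w * (g ^ (k * j) * u * (g ^ (k * j))⁻¹) * w⁻¹ =
          (w * g ^ (k * j)) * u * (g ^ (k * j))⁻¹ * w⁻¹ := by group
      rw [e3, (hwgc.pow_right (k * j)).eq]
      calc g ^ (k * j) * w * u * (g ^ (k * j))⁻¹ * w⁻¹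
          = g ^ (k * j) * w * u * (w⁻¹ * (w * (g ^ (k * j))⁻¹ * w⁻¹)) := by group
        _ = g ^ (k * j) * w * u * (w⁻¹ * (g ^ (k * j))⁻¹) := by
            have : w * (g ^ (k * j))⁻¹ * w⁻¹ = (g ^ (k * j))⁻¹ := by
              have := (hwgc.pow_right (k * j)).inv_right.eq
              rw [this]
              group
            rw [this]
        _ = g ^ (k * j) * (w * u * w⁻¹) * (g ^ (k * j))⁻¹ := by group
        _ = _ := by rw [hk]; group
  have h1 := hind (orderOf w)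
  rw [pow_orderOf_eq_one, one_mul, inv_one, mul_one] at h1
  have h2 : g ^ (k * orderOf w) ∈ cz u := by
    rw [mem_cz]
    have : u * g ^ (k * orderOf w) = g ^ (k * orderOf w) * u := by
      conv_lhs => rw [h1]
      group
    exact this
  have hpk : p ∣ k := by
    by_contra hpk
    apply hgP1
    have hco : (k * orderOf w).Coprime p := Nat.Coprime.mul_left
      ((Nat.coprime_comm.mp ((Nat.Prime.coprime_iff_not_dvd hp.out).mpr hpk))) hw
    have hb := Nat.gcd_eq_gcd_ab (k * orderOf w) p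
    rw [hco.gcd_eq_one] at hb
    have h3 : g ^ (k * orderOf w) ∈ (P : Subgroup G) ⊓ cz u :=
      Subgroup.mem_inf.mpr ⟨Subgroup.pow_mem _ hg _, h2⟩
    have h4 := pow_mem_of_relIndex P.isPGroup' U.rel hg
    have h5 : g = (g ^ (k * orderOf w)) ^ (Nat.gcdA (k * orderOf w) p) *
        (g ^ p) ^ (Nat.gcdB (k * orderOf w) p) := by
      rw [← zpow_natCast g (k * orderOf w), ← zpow_natCast g p, ← zpow_mul, ← zpow_mul, ← zpow_add]
      have : ((k * orderOf w : ℕ) : ℤ) * Nat.gcdA (k * orderOf w) p +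
          (p : ℤ) * Nat.gcdB (k * orderOf w) p = 1 := by
        rw [← hb]
        simp
      rw [this, zpow_one]
    rw [h5]
    exact Subgroup.mul_mem _ (Subgroup.zpow_mem _ h3 _) (Subgroup.zpow_mem _ h4 _)
  have hwu : w * u * w⁻¹ = u := by
    obtain ⟨c, rfl⟩ := hpk
    rw [hk, pow_mul]
    have h4 := pow_mem_of_relIndex P.isPGroup' U.rel hg
    have h5 : (g ^ p) ^ c ∈ cz u := Subgroup.pow_mem _ (Subgroup.mem_inf.mp h4).2 _
    have h6 : (g ^ p) ^ c * u = u * (g ^ p) ^ c := (mem_cz.mp h5).symm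
    rw [h6]
    group
  obtain ⟨i, hi⟩ := hO h
  rw [hi]
  have hwu' : w * u = u * w := by
    conv_rhs => rw [← hwu]
    group
  have hwgi : Commute w (g ^ i) := hwgc.pow_right i
  have hc1 : Commute w (g ^ i * u * (g ^ i)⁻¹) :=
    (hwgi.mul_right (show Commute w u from hwu')).mul_right hwgi.inv_right
  exact hc1.eq

/-- Case I cannot occur. -/
theorem false_of_caseI : False := by
  have hpm : p ∣ p := dvd_rfl
  have hm' : ordProj[p] p = p := H.hm'_self hI
  obtain ⟨u, hu, hui⟩ := H.exists_u hpm hm' hI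
  obtain ⟨q, hq, hqp, hqx⟩ := H.exists_q hpm hm' hI
  have huc : u ∉ Subgroup.center G := by
    intro h
    rw [(index_cz_eq_one_iff u).mpr h] at hui
    exact H.hm.ne hui
  -- A Sylow subgroup containing a large subgroup of `C(u)`.
  obtain ⟨Yu, -, hYu, hYup, hYuc⟩ := H.exists_le_rho hpm hm' u (Y₀ := ⊥) bot_le IsPGroup.of_bot
  obtain ⟨P, hYuP⟩ := hYup.exists_le_sylow
  have hcu := H.card_inf_eq hpm hm' P huc hYuP hYu hYuc
  have U := H.uData hI P hu hui hcu
  have hP1 := Subgroup.inf_relIndex_left (P : Subgroup G) (cz u)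
  -- an element of `P` outside `C(u)`
  obtain ⟨g₀, hg₀P, hg₀u⟩ : ∃ g₀ ∈ (P : Subgroup G), g₀ ∉ cz u := by
    by_contra hcon
    push Not at hcon
    have h1 : (P : Subgroup G) ≤ cz u := hcon
    have h2 := U.rel
    rw [Subgroup.inf_relIndex_left, Subgroup.relIndex_eq_one.mpr h1] at h2
    exact H.hm.ne h2
  have hg₀c : g₀ ∉ Subgroup.center G := fun h => hg₀u (center_le_cz u h)
  have hg₀p : IsPGroup p (Subgroup.zpowers g₀) :=
    P.isPGroup'.to_le ((Subgroup.zpowers_le).mpr hg₀P)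
  obtain ⟨Yg, hg₀Y, hYg, hYgp, hYgc⟩ := H.exists_le_rho hpm hm' g₀
    (Y₀ := Subgroup.zpowers g₀) ((Subgroup.zpowers_le).mpr (mem_cz_self g₀)) hg₀p
  obtain ⟨a, ha⟩ := exists_conj_into P hYgp
  set g := a * g₀ * a⁻¹ with hgdef
  have hgP : g ∈ (P : Subgroup G) := ha (mem_map_conj (hg₀Y (Subgroup.mem_zpowers g₀)))
  have hgu : g ∉ cz u := by
    intro h
    have h1 := U.cent g hgP h a
    apply hg₀u
    rw [mem_cz]
    have h2 : a * (u * g₀) * a⁻¹ = a * (g₀ * u) * a⁻¹ := by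
      calc a * (u * g₀) * a⁻¹ = (a * u * a⁻¹) * g := by rw [hgdef]; group
        _ = g * (a * u * a⁻¹) := h1.symm
        _ = _ := by rw [hgdef]; group
    exact mul_left_cancel (mul_right_cancel h2)
  have hgc : g ∉ Subgroup.center G := fun h => hgu (center_le_cz u h)
  have hcg : Nat.card ((P : Subgroup G) ⊓ cz g : Subgroup G) = rho G p p := by
    apply H.card_inf_eq hpm hm' P hgc ha _ (by rwa [card_map_conj])
    rintro _ ⟨v, hv, rfl⟩
    exact conj_mem_cz (hYg hv)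
  obtain ⟨lg, hlg⟩ := exists_pow_of_isPGroup P.isPGroup' hgP
  have hgi := hI g ⟨lg, hlg⟩ hgc
  obtain ⟨w, hwg, hwc, lw, hlw⟩ := hqx g ⟨lg, hlg⟩ hgc
  have hwp : (orderOf w).Coprime p := coprime_of_pow_ne hp.out hq.out hqp.symm hlw
  have hgw : cz g ≤ cz w := H.le_cz_of_size_mn hgi hwg (card_inf_of_pow_one hp.out hlg hwp)
  have hwu := H.comm_conj hI U hgP hgu hwg hwp
  have huw : u ∈ cz w := by
    have := hwu 1
    simp only [one_mul, inv_one, mul_one] at this
    rw [mem_cz]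
    exact this
  have hwi : (cz w).index = p := by
    rcases H.index_of_noncentral hwc with h | h
    · exact h
    · exfalso
      have h1 := eq_of_le_of_index_eq hgw (by rw [hgi, h])
      rw [← h1] at huw
      exact hgu (mem_cz_comm.mp huw)
  have hP3 : (P : Subgroup G) ⊓ cz g = (P : Subgroup G) ⊓ cz w := by
    apply Subgroup.eq_of_le_of_card_ge (inf_le_inf_left _ hgw)
    rw [hcg]
    exact H.card_le_rho hpm hm' hwc inf_le_right (P.isPGroup'.to_le inf_le_left)
  have hcw : Nat.card ((P : Subgroup G) ⊓ cz w : Subgroup G) = rho G p p := by rw [← hP3, hcg]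
  have W := H.uData hI P hwp hwi hcw
  -- the product
  obtain ⟨Yv, -, hYv, hYvp, hYvc⟩ := H.exists_le_rho hpm hm' (u * w) (Y₀ := ⊥) bot_le IsPGroup.of_bot
  obtain ⟨a₁, ha₁⟩ := exists_conj_into P hYvp
  set u₁ := a₁ * u * a₁⁻¹ with hu₁
  set w₁ := a₁ * w * a₁⁻¹ with hw₁
  have hkey : (P : Subgroup G) ⊓ cz (u₁ * w₁) ≤ ((P : Subgroup G) ⊓ cz u) ⊓ ((P : Subgroup G) ⊓ cz w) := by
    rintro c ⟨hcP, hcv⟩
    have hcP' : c ∈ (P : Subgroup G) := hcP
    have hcv' : c ∈ cz (u₁ * w₁) := hcv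
    have hcv2 := mem_cz.mp hcv'
    have hconjv : (c * u₁ * c⁻¹) * (c * w₁ * c⁻¹) = u₁ * w₁ := by
      calc (c * u₁ * c⁻¹) * (c * w₁ * c⁻¹) = c * (u₁ * w₁) * c⁻¹ := by group
        _ = (u₁ * w₁) * c * c⁻¹ := by rw [← hcv2]
        _ = _ := by group
    set y := u₁⁻¹ * (c * u₁ * c⁻¹) with hy
    have hy2 : y = w₁ * (c * w₁ * c⁻¹)⁻¹ := by
      rw [hy, eq_mul_inv_iff_mul_eq]
      calc u₁⁻¹ * (c * u₁ * c⁻¹) * (c * w₁ * c⁻¹) = u₁⁻¹ * ((c * u₁ * c⁻¹) * (c * w₁ * c⁻¹)) := by group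
        _ = u₁⁻¹ * (u₁ * w₁) := by rw [hconjv]
        _ = w₁ := by group
    -- `c u₁ c⁻¹` is a conjugate
    have hcu₁ : c * u₁ * c⁻¹ = (c * a₁) * u * (c * a₁)⁻¹ := by rw [hu₁]; group
    have hcw₁ : c * w₁ * c⁻¹ = (c * a₁) * w * (c * a₁)⁻¹ := by rw [hw₁]; group
    have hyP1 : ∀ d ∈ (P : Subgroup G), d ∈ cz u → d * y = y * d := by
      intro d hd hdu
      have h1 := U.cent d hd hdu a₁
      have h2 := U.cent d hd hdu (c * a₁)
      rw [← hu₁] at h1
      rw [← hcu₁] at h2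
      have hc1 : Commute d u₁ := h1
      have hc2 : Commute d (c * u₁ * c⁻¹) := h2
      rw [hy]
      exact (hc1.inv_right.mul_right hc2).eq
    have hyg : g * y = y * g := by
      have h1 := W.cent g hgP (hgw (mem_cz_self g)) a₁
      have h2 := W.cent g hgP (hgw (mem_cz_self g)) (c * a₁)
      rw [← hw₁] at h1
      rw [← hcw₁] at h2
      have hc1 : Commute g w₁ := h1
      have hc2 : Commute g (c * w₁ * c⁻¹) := h2
      rw [hy2]
      exact (hc1.mul_right hc2.inv_right).eq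
    have hyc : c * y = y * c := by
      obtain ⟨k, d, hd, rfl⟩ := exists_pow_mul P.isPGroup' U.rel hgP
        (fun h1 => hgu (Subgroup.mem_inf.mp h1).2) hcP'
      have hc1 : Commute (g ^ k) y := (show Commute g y from hyg).pow_left k
      have hc2 : Commute d y := hyP1 d (Subgroup.mem_inf.mp hd).1 (Subgroup.mem_inf.mp hd).2
      exact (hc1.mul_left hc2).eq
    obtain ⟨lc, hlc⟩ := exists_pow_of_isPGroup P.isPGroup' hcP'
    have hyord : (orderOf y).Coprime p := by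
      have hcomm : Commute u₁⁻¹ (c * u₁ * c⁻¹) := by
        have h1 := U.all_comm a₁ (c * a₁)
        rw [← hu₁, ← hcu₁] at h1
        exact (show Commute u₁ (c * u₁ * c⁻¹) from h1).inv_left
      have h2 : orderOf y ∣ Nat.lcm (orderOf u₁⁻¹) (orderOf (c * u₁ * c⁻¹)) :=
        hcomm.orderOf_mul_dvd_lcm
      refine Nat.Coprime.coprime_dvd_left h2 ?_
      rw [orderOf_inv]
      refine Nat.Coprime.coprime_dvd_left (Nat.lcm_dvd_mul _ _) (Nat.Coprime.mul_left ?_ ?_)
      · exact orderOf_conj_coprime hu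
      · exact orderOf_conj_coprime (orderOf_conj_coprime hu)
    have hy1 : y = 1 := by
      refine eq_one_of_conj_eq_mul (u := u₁) ?_ hyc hlc hyord
      rw [hy]
      group
    have hcfix1 : c * u₁ * c⁻¹ = u₁ := by
      rw [hy, inv_mul_eq_one] at hy1
      exact hy1.symm
    have hcfix2 : c * w₁ * c⁻¹ = w₁ := by
      rw [hy2, mul_inv_eq_one] at hy1
      exact hy1.symm
    have hcc1 : c * u₁ = u₁ * c := by
      conv_rhs => rw [← hcfix1]
      group
    have hcc2 : c * w₁ = w₁ * c := by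
      conv_rhs => rw [← hcfix2]
      group
    refine Subgroup.mem_inf.mpr ⟨Subgroup.mem_inf.mpr ⟨hcP', ?_⟩, Subgroup.mem_inf.mpr ⟨hcP', ?_⟩⟩
    · exact U.mem_of_comm hcP' hcc1
    · exact W.mem_of_comm hcP' hcc2
  -- counting
  have hle1 : Yv.map (MulAut.conj a₁).toMonoidHom ≤ (P : Subgroup G) ⊓ cz (u₁ * w₁) := by
    refine le_inf ha₁ ?_
    rintro _ ⟨v, hv, rfl⟩
    have h1 := conj_mem_cz (a := a₁) (hYv hv)
    have e : a₁ * (u * w) * a₁⁻¹ = u₁ * w₁ := by rw [hu₁, hw₁]; group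
    rw [e] at h1
    exact h1
  have hcard1 : rho G p p ≤ Nat.card (((P : Subgroup G) ⊓ cz u) ⊓ ((P : Subgroup G) ⊓ cz w) : Subgroup G) := by
    calc rho G p p ≤ Nat.card Yv := hYvc
      _ = Nat.card (Yv.map (MulAut.conj a₁).toMonoidHom) := (card_map_conj _ _).symm
      _ ≤ _ := Subgroup.card_le_of_le (hle1.trans hkey)
  have hP13 : (P : Subgroup G) ⊓ cz u = ((P : Subgroup G) ⊓ cz u) ⊓ ((P : Subgroup G) ⊓ cz w) := by
    symm
    apply Subgroup.eq_of_le_of_card_ge inf_le_left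
    rw [hcu]
    exact hcard1
  have hP13' : (P : Subgroup G) ⊓ cz w = ((P : Subgroup G) ⊓ cz u) ⊓ ((P : Subgroup G) ⊓ cz w) := by
    symm
    apply Subgroup.eq_of_le_of_card_ge inf_le_right
    rw [hcw]
    exact hcard1
  have hgin : g ∈ (P : Subgroup G) ⊓ cz w :=
    Subgroup.mem_inf.mpr ⟨hgP, hgw (mem_cz_self g)⟩
  rw [hP13', ← hP13] at hgin
  exact hgu (Subgroup.mem_inf.mp hgin).2

end Hyp

end Hyp3

end Cfsg.Agent.Lib.Transfer.CoprimeSizes
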