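import Mathlib
import Cfsg.Agent.Lib.Transfer.CoprimeSizes3
import Cfsg.Agent.Lib.OddLocal.CN
import Cfsg.Agent.Lib.Coprime.Action

/-!
# Groups with class sizes `1, m, m n`: case II

A non-central `p`-element `x` of class size `m = p^e`.  `C(x) = P_D × E`, with `E` abelian (the other
case leads to a contradiction by Jordan's lemma, using Itô's theorem), and `C(x)` is normal.
-/

set_option autoImplicit false
set_option linter.unusedSectionVars false
set_option linter.style.haveILetI false

open scoped Pointwise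

namespace Cfsg.Agent.Lib.Transfer.CoprimeSizes

open Cfsg.Agent.Lib.Transfer.ClassSize
  (eq_top_of_forall_conj_mem exists_sylow_of_not_dvd_index centralizer_mul_of_coprime
    normal_of_forall_not_dvd_index hasNormalPComplement_of_forall_not_dvd_index)
open Cfsg.Agent.Lib.Transfer.TwoGClassSizes
open Cfsg.Agent.Lib.Core.Residual (exists_pPart_pPrimePart)

variable {G : Type*} [Group G]

/-- The `p'`-part of `C(x)`: a Hall `p'`-subgroup of `G`. -/
structure IsE (p : ℕ) (x : G) (E : Subgroup G) : Prop where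
  le : E ≤ cz x
  cop : ∀ y ∈ E, (orderOf y).Coprime p
  mem : ∀ y ∈ cz x, (orderOf y).Coprime p → y ∈ E
  cardcop : (Nat.card E).Coprime p
  idx : ∃ a : ℕ, E.index = p ^ a

theorem cz_conj (a y : G) : cz (a * y * a⁻¹) = (cz y).map (MulAut.conj a).toMonoidHom := by
  ext z
  constructor
  · intro hz
    refine ⟨a⁻¹ * z * a, ?_, ?_⟩
    · have h1 := conj_mem_cz (a := a⁻¹) hz
      have e : a⁻¹ * (a * y * a⁻¹) * a⁻¹⁻¹ = y := by group
      have e2 : a⁻¹ * z * a⁻¹⁻¹ = a⁻¹ * z * a := by group
      rw [e, e2] at h1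
      exact h1
    · change a * (a⁻¹ * z * a) * a⁻¹ = z
      group
  · rintro ⟨w, hw, rfl⟩
    exact conj_mem_cz hw

theorem index_cz_conj [Finite G] (a y : G) : (cz (a * y * a⁻¹)).index = (cz y).index := by
  have h1 := Subgroup.card_mul_index (cz (a * y * a⁻¹))
  have h2 := Subgroup.card_mul_index (cz y)
  rw [cz_conj, card_map_conj] at h1
  rw [cz_conj]
  rw [← h2] at h1
  exact Nat.eq_of_mul_eq_mul_left Nat.card_pos h1

theorem exists_sylow_mem {K : Type*} [Group K] [Finite K] {q k : ℕ} [Fact q.Prime] {t : K}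
    (ht : t ^ q ^ k = 1) : ∃ Q : Sylow q K, t ∈ (Q : Subgroup K) := by
  have hz : IsPGroup q (Subgroup.zpowers t) := by
    apply isPGroup_of_forall
    intro w hw
    obtain ⟨i, rfl⟩ := Subgroup.mem_zpowers_iff.mp hw
    refine ⟨k, ?_⟩
    rw [← zpow_natCast, ← zpow_mul, mul_comm, zpow_mul, zpow_natCast, ht, one_zpow]
  obtain ⟨Q, hQ⟩ := hz.exists_le_sylow
  exact ⟨Q, hQ (Subgroup.mem_zpowers t)⟩

theorem isPGroup_zpowers {q k : ℕ} {t : G} (ht : t ^ q ^ k = 1) : IsPGroup q (Subgroup.zpowers t) := by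
  apply isPGroup_of_forall
  intro w hw
  obtain ⟨i, rfl⟩ := Subgroup.mem_zpowers_iff.mp hw
  refine ⟨k, ?_⟩
  rw [← zpow_natCast, ← zpow_mul, mul_comm, zpow_mul, zpow_natCast, ht, one_zpow]

theorem pow_of_pow_conj {q k : ℕ} {t : G} (a : G) (ht : t ^ q ^ k = 1) : (a * t * a⁻¹) ^ q ^ k = 1 := by
  rw [conj_pow, ht]
  group

/-- Two subgroups `A ≤ B`, `|B|` prime to `p`, `|G : A|` a `p`-power, coincide. -/
theorem eq_of_le_of_hall [Finite G] {p : ℕ} [hp : Fact p.Prime] {A B : Subgroup G} (hAB : A ≤ B)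
    (hB : (Nat.card B).Coprime p) (hA : ∃ a : ℕ, A.index = p ^ a) : A = B := by
  obtain ⟨a, ha⟩ := hA
  have h1 : A.relIndex B ∣ p ^ a := by
    rw [← ha]
    exact Subgroup.relIndex_dvd_index_of_le hAB
  have h2 : A.relIndex B ∣ Nat.card B := Subgroup.relIndex_dvd_card _ _
  have h3 : (Nat.card B).Coprime (p ^ a) := Nat.Coprime.pow_right _ hB
  have h4 : A.relIndex B = 1 := Nat.eq_one_of_dvd_coprimes h3 h2 h1
  exact le_antisymm hAB (Subgroup.relIndex_eq_one.mp h4)

section Hyp4

variable [Finite G] {m n p : ℕ} [hp : Fact p.Prime]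

namespace Hyp

variable (H : Hyp G m n) (hpm : p ∣ m) (hm' : ordProj[p] m = m)
include H hpm hm'

theorem exists_isE {x : G} {l : ℕ} (hl : x ^ p ^ l = 1) (hx : (cz x).index = m) :
    ∃ E : Subgroup G, IsE p x E := by
  have hc : Cfsg.HasNormalPComplement p (cz x) :=
    hasNormalPComplement_of_forall_not_dvd_index p (fun z hz => by
      apply H.not_dvd_of_relIndex hx hp.out (H.not_dvd_n hp.out hpm)
      have hz1 : (orderOf (z : G)).Coprime p := by rwa [Subgroup.orderOf_coe]
      exact (card_inf_of_pow_one hp.out hl hz1).symm)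
  obtain ⟨P, N, hNn, hN⟩ := hc
  have hcN : Nat.card N = (P : Subgroup (cz x)).index := hN.index_eq_card.symm
  have hiN : N.index = Nat.card (P : Subgroup (cz x)) := hN.symm.index_eq_card
  have hcop : (Nat.card N).Coprime p := by
    rw [hcN, Nat.coprime_comm]
    exact (Nat.Prime.coprime_iff_not_dvd hp.out).mpr P.not_dvd_index
  obtain ⟨k, hk⟩ := IsPGroup.iff_card.mp P.isPGroup'
  have hi2 : N.index = p ^ k := by rw [hiN, hk]
  refine ⟨N.map (cz x).subtype, ?_, ?_, ?_, ?_, ?_⟩
  · rintro _ ⟨t, -, rfl⟩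
    exact t.2
  · rintro _ ⟨t, ht, rfl⟩
    have h1 : orderOf t ∣ Nat.card N := by
      have := orderOf_dvd_natCard (⟨t, ht⟩ : N)
      rwa [Subgroup.orderOf_mk] at this
    change (orderOf (t : G)).Coprime p
    rw [Subgroup.orderOf_coe]
    exact Nat.Coprime.coprime_dvd_left h1 hcop
  · intro y hy hyc
    let t : cz x := ⟨y, hy⟩
    have h1 : t ^ N.index ∈ N := Subgroup.pow_index_mem N t
    have h2 : (N.index).Coprime (orderOf t) := by
      rw [hi2, Subgroup.orderOf_mk]
      exact Nat.Coprime.pow_left _ hyc.symm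
    obtain ⟨u, hu⟩ := exists_pow_eq_self_of_coprime h2
    refine ⟨t, ?_, rfl⟩
    rw [← hu]
    exact N.pow_mem h1 _
  · rw [Subgroup.card_map_of_injective (cz x).subtype_injective]
    exact hcop
  · rw [Subgroup.index_map_subtype, hi2, hx]
    refine ⟨k + m.factorization p, ?_⟩
    rw [pow_add, hm']

theorem m_pow : ∃ f : ℕ, m = p ^ f := ⟨m.factorization p, hm'.symm⟩

/-- A prime dividing `m` is `p`. -/
theorem eq_p_of_dvd_m {q : ℕ} (hq : q.Prime) (hqm : q ∣ m) : q = p := by
  obtain ⟨f, hf⟩ := H.m_pow hpm hm'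
  rw [hf] at hqm
  exact (Nat.prime_dvd_prime_iff_eq hq hp.out).mp (hq.dvd_of_dvd_pow hqm)

theorem not_dvd_m {q : ℕ} (hq : q.Prime) (hqp : q ≠ p) : ¬ q ∣ m :=
  fun h => hqp (H.eq_p_of_dvd_m hpm hm' hq h)

section WithE

variable {x : G} {l : ℕ} (hl : x ^ p ^ l = 1) (hx : (cz x).index = m) {E : Subgroup G}
  (hE : IsE p x E)
include hl hx hE

/-- An element centralizing `E` has class size `m`. -/
theorem index_eq_m_of_le {t : G} (htE : E ≤ cz t) (htc : t ∉ Subgroup.center G) : (cz t).index = m := by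
  rcases H.index_of_noncentral htc with h | h
  · exact h
  · exfalso
    obtain ⟨a, ha⟩ := hE.idx
    have h1 : (cz t).index ∣ E.index := Subgroup.index_dvd_of_le htE
    rw [h, ha] at h1
    have h2 : n ∣ p ^ a := (Dvd.intro_left _ rfl).trans h1
    have h3 : n.Coprime (p ^ a) := Nat.Coprime.pow_right _
      (Nat.coprime_comm.mp ((Nat.Prime.coprime_iff_not_dvd hp.out).mpr (H.not_dvd_n hp.out hpm)))
    have := Nat.Coprime.eq_one_of_dvd h3 h2
    exact H.hn.ne' this

/-- `p`-elements of `C(x)` commute with `E`. -/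
theorem comm_E {t y : G} (ht : t ∈ cz x) (htk : ∃ k : ℕ, t ^ p ^ k = 1) (hy : y ∈ E) : t * y = y * t :=
  H.comm_p hpm hl hx ht (hE.le hy) htk (hE.cop y hy)

theorem decomp (g : G) (hg : g ∈ cz x) : ∃ a b : G, g = a * b ∧ a ∈ cz x ∧ (∃ k : ℕ, a ^ p ^ k = 1) ∧
    b ∈ E ∧ a * b = b * a := by
  obtain ⟨a, b, hab, hc, hak, hb, ha', hb'⟩ := exists_pPart_pPrimePart p g (isOfFinOrder_of_finite g)
  have hgz : Subgroup.zpowers g ≤ cz x := (Subgroup.zpowers_le).mpr hg
  exact ⟨a, b, hab.symm, hgz ha', hak, hE.mem b (hgz hb') hb, hc⟩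

/-- An element of `E` central in `E`, non-central in `G`, has centralizer `C(x)`. -/
theorem cz_eq_of_central_in_E {z : G} (hz : z ∈ E) (hzE : ∀ y ∈ E, z * y = y * z)
    (hzc : z ∉ Subgroup.center G) : cz z = cz x := by
  have h1 : cz x ≤ cz z := by
    intro g hg
    obtain ⟨a, b, rfl, ha, hak, hb, -⟩ := H.decomp hpm hm' hl hx hE g hg
    rw [mem_cz]
    have h2 : Commute z a := (H.comm_E hpm hm' hl hx hE ha hak hz).symm
    have h3 : Commute z b := hzE b hb
    exact (h2.mul_right h3).eq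
  have h2 := Subgroup.index_dvd_of_le h1
  rw [hx] at h2
  rcases H.index_of_noncentral hzc with h | h
  · exact (eq_of_le_of_index_eq h1 (by rw [h, hx])).symm
  · rw [h] at h2
    exact absurd h2 H.not_mn_dvd_m

/-- The case of non-abelian `E`. -/
theorem false_of_nonabelian (hprimes : ∀ q : ℕ, q.Prime → q ∣ Nat.card G → q ∣ m * n)
    {y₀ y₁ : G} (hy₀ : y₀ ∈ E) (hy₁ : y₁ ∈ E) (hne : y₀ * y₁ ≠ y₁ * y₀) : False := by
  have hxc : x ∉ Subgroup.center G := by
    intro h
    rw [(index_cz_eq_one_iff x).mpr h] at hx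
    exact H.hm.ne hx
  have hcopx : ∀ {t : G}, t ∈ cz x → (orderOf t).Coprime p → (orderOf x).Coprime (orderOf t) :=
    fun _ h => card_inf_of_pow_one hp.out hl h
  let K := cz x
  let y₀' : K := ⟨y₀, hE.le hy₀⟩
  have hy₀c : y₀' ∉ Subgroup.center K := by
    intro h
    apply hne
    have h1 := Subgroup.mem_center_iff.mp h ⟨y₁, hE.le hy₁⟩
    exact (congrArg Subtype.val h1).symm
  have hy₀o : (orderOf y₀').Coprime p := by
    rw [Subgroup.orderOf_mk]
    exact hE.cop y₀ hy₀
  obtain ⟨r, hr, hrp, t', -, ht'c, k, ht'k⟩ := exists_primary hy₀c hy₀o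
  have hpr : p ≠ r := hrp.symm
  set t : G := (t' : G) with ht
  have htk : t ^ r ^ k = 1 := by
    have := congrArg Subtype.val ht'k
    simpa using this
  have htD : t ∈ cz x := t'.2
  have htp : (orderOf t).Coprime p := coprime_of_pow_ne hp.out hr.out hpr htk
  have htE : t ∈ E := hE.mem t htD htp
  -- `t` is not central in `C(x)`
  have hrn : (cz t).relIndex (cz x) = n := by
    rcases H.relIndex_of_size_m hx htD (hcopx htD htp) with h | h
    · exfalso
      apply ht'c
      rw [Subgroup.mem_center_iff]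
      intro d
      have h1 := Subgroup.relIndex_eq_one.mp h d.2
      exact Subtype.ext (mem_cz.mp h1).symm
    · exact h
  have htc : t ∉ Subgroup.center G := by
    intro h
    apply ht'c
    rw [Subgroup.mem_center_iff]
    intro d
    exact Subtype.ext ((Subgroup.mem_center_iff.mp h) (d : G))
  have hidxC : (cz t ⊓ cz x).index = m * n := by
    have h1 := Subgroup.relIndex_mul_index (inf_le_right : cz t ⊓ cz x ≤ cz x)
    rw [Subgroup.inf_relIndex_right, hrn, hx] at h1
    rw [← h1, mul_comm]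
  -- Itô
  let E' : Subgroup K := E.subgroupOf K
  have hE'mem : ∀ z : K, z ∈ E' ↔ (z : G) ∈ E := fun z => Subgroup.mem_subgroupOf
  haveI hE'n : E'.Normal := by
    constructor
    intro z hz d
    rw [hE'mem] at hz ⊢
    apply hE.mem _ ((d * z * d⁻¹ : K)).2
    exact orderOf_conj_coprime (hE.cop _ hz)
  obtain ⟨R', hR'⟩ := exists_sylow_mem (q := r) ht'k
  have hnil : Group.IsNilpotent E' := by
    apply nilpotent_of_two_sizes (m := n) (r := r) R'
    · intro h
      exact ht'c (h hR')
    · intro z hz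
      obtain ⟨j, hj⟩ := exists_pow_of_isPGroup R'.isPGroup' hz
      rw [hE'mem]
      apply hE.mem _ z.2
      apply coprime_of_pow_ne hp.out hr.out hpr (k := j)
      simpa using congrArg Subtype.val hj
    · intro z hz
      rw [hE'mem] at hz
      change (Subgroup.centralizer ({z} : Set K)).index = 1 ∨ (Subgroup.centralizer ({z} : Set K)).index = n
      rw [index_centralizer_subtype]
      exact H.relIndex_of_size_m hx z.2 (hcopx z.2 (hE.cop _ hz))
  -- `n` is a power of `r`
  have hnr : ∀ {q : ℕ}, q.Prime → q ∣ n → q = r := by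
    intro q hq hqn
    by_contra hqr
    haveI : Fact q.Prime := ⟨hq⟩
    have hqp : q ≠ p := by
      rintro rfl
      exact H.not_dvd_n hp.out hpm hqn
    obtain ⟨T, -, hTE, hTp, hTc⟩ := exists_sylow_image (p := q) E ⊥ bot_le IsPGroup.of_bot
    have hTC : T ≤ cz t ⊓ cz x := by
      intro v hv
      obtain ⟨j, hj⟩ := exists_pow_of_isPGroup hTp hv
      refine Subgroup.mem_inf.mpr ⟨?_, hE.le (hTE hv)⟩
      have hvK : (⟨v, hE.le (hTE hv)⟩ : K) ∈ E' := (hE'mem _).mpr (hTE hv)
      have hvK' : t' ∈ E' := (hE'mem _).mpr htE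
      have hc := Cfsg.Agent.Lib.OddLocal.CN.commute_of_coprime' hnil (x := t') hvK' hvK (by
        rw [Subgroup.orderOf_mk, Subgroup.orderOf_mk]
        exact coprime_of_pow_pow (p := r) (q := q) hr.out hq (Ne.symm hqr) htk hj)
      rw [mem_cz]
      exact (congrArg Subtype.val hc.eq)
    have h1 := card_le_ordProj hTC hTp
    have h2 := Subgroup.card_mul_index (cz t ⊓ cz x)
    have h3 := Subgroup.card_mul_index E
    obtain ⟨a, ha⟩ := hE.idx
    have hG : ordProj[q] (Nat.card G) = Nat.card T := by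
      rw [← h3, ha, Nat.ordProj_mul q Nat.card_pos.ne' (pow_ne_zero _ hp.out.ne_zero), hTc]
      have : (p ^ a).factorization q = 0 := by
        rw [hp.out.factorization_pow]
        simp [hqp]
      rw [this, pow_zero, mul_one]
    have hG2 := Nat.ordProj_mul q (Nat.card_pos (α := (cz t ⊓ cz x : Subgroup G))).ne'
      (Subgroup.index_ne_zero_of_finite (H := cz t ⊓ cz x))
    rw [h2, hidxC, hG] at hG2
    have hmn0 : m * n ≠ 0 := Nat.mul_ne_zero (by have := H.hm; omega) (by have := H.hn; omega)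
    have hq1 : 1 ≤ (m * n).factorization q :=
      (Nat.Prime.dvd_iff_one_le_factorization hq hmn0).mp (hqn.trans (Dvd.intro_left _ rfl))
    have hq2 : q ≤ ordProj[q] (m * n) := by
      calc q = q ^ 1 := (pow_one q).symm
        _ ≤ _ := Nat.pow_le_pow_right hq.pos hq1
    have hpos : 0 < ordProj[q] (Nat.card (cz t ⊓ cz x : Subgroup G)) := pow_pos hq.pos _
    have : ordProj[q] (Nat.card (cz t ⊓ cz x : Subgroup G)) * 2 ≤
        ordProj[q] (Nat.card (cz t ⊓ cz x : Subgroup G)) * ordProj[q] (m * n) :=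
      Nat.mul_le_mul_left _ (hq.two_le.trans hq2)
    omega
  -- `E` is an `r`-group
  have hEr : IsPGroup r E := by
    apply IsPGroup.of_card (n := (Nat.card E).primeFactorsList.length)
    apply Nat.eq_prime_pow_of_unique_prime_dvd Nat.card_pos.ne'
    intro q hq hqE
    have h1 : q ∣ Nat.card G := hqE.trans (Subgroup.card_subgroup_dvd_card E)
    rcases (Nat.Prime.dvd_mul hq).mp (hprimes q hq h1) with h2 | h2
    · exfalso
      have h3 := H.eq_p_of_dvd_m hpm hm' hq h2
      subst h3
      have h4 := Nat.dvd_gcd hqE dvd_rfl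
      rw [hE.cardcop.gcd_eq_one] at h4
      exact hq.one_lt.ne' (Nat.dvd_one.mp h4)
    · exact hnr hq h2
  have hrm : ¬ r ∣ m := H.not_dvd_m hpm hm' hr.out hrp
  have hrE : ¬ r ∣ E.index := by
    obtain ⟨a, ha⟩ := hE.idx
    rw [ha]
    intro h
    exact hrp ((Nat.prime_dvd_prime_iff_eq hr.out hp.out).mp (hr.out.dvd_of_dvd_pow h))
  let R : Sylow r G := hEr.toSylow hrE
  have hRE : (R : Subgroup G) = E := hEr.toSylow_coe hrE
  -- centralizers of `r`-elements
  have hvii : ∀ y : G, (∃ k : ℕ, y ^ r ^ k = 1) → y ∉ Subgroup.center G →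
      ∃ a : G, ∀ u ∈ cz y, a * u * a⁻¹ ∈ cz x := by
    intro y hyk hyc
    by_cases hry : r ∣ (cz y).index
    · -- class size `m n`
      have hyi : (cz y).index = m * n := by
        rcases H.index_of_noncentral hyc with h | h
        · rw [h] at hry
          exact absurd hry hrm
        · exact h
      obtain ⟨j, hj⟩ := hyk
      obtain ⟨a, ha⟩ := exists_conj_into R (isPGroup_zpowers hj)
      have hy'R : a * y * a⁻¹ ∈ E := by
        rw [← hRE]
        exact ha (mem_map_conj (Subgroup.mem_zpowers y))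
      have hy'c : a * y * a⁻¹ ∉ Subgroup.center G := fun h => hyc (conj_mem_center_iff.mp h)
      have hy'i : (cz (a * y * a⁻¹)).index = m * n := by rw [index_cz_conj, hyi]
      have hrel : (cz (a * y * a⁻¹)).relIndex (cz x) = n := by
        rcases H.relIndex_of_size_m hx (hE.le hy'R) (hcopx (hE.le hy'R) (hE.cop _ hy'R)) with h | h
        · exfalso
          have h1 : cz x ≤ cz (a * y * a⁻¹) := Subgroup.relIndex_eq_one.mp h
          have h2 := Subgroup.index_dvd_of_le h1
          rw [hy'i, hx] at h2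
          exact H.not_mn_dvd_m h2
        · exact h
      have hle : cz (a * y * a⁻¹) ≤ cz x := by
        have h1 := Subgroup.relIndex_mul_index (inf_le_right : cz (a * y * a⁻¹) ⊓ cz x ≤ cz x)
        rw [Subgroup.inf_relIndex_right, hrel, hx] at h1
        have h2 : cz (a * y * a⁻¹) ⊓ cz x = cz (a * y * a⁻¹) :=
          eq_of_le_of_index_eq inf_le_left (by rw [← h1, hy'i, mul_comm])
        exact inf_eq_left.mp h2
      exact ⟨a, fun u hu => hle (conj_mem_cz hu)⟩
    · -- class size prime to `r`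
      obtain ⟨Q, hyQ, hQ⟩ := exists_sylow_of_not_dvd_index r hry (Commute.refl y) hyk
      obtain ⟨a, ha⟩ := MulAction.exists_smul_eq G Q R
      have hy'R : a * y * a⁻¹ ∈ (R : Subgroup G) := by
        rw [← ha]
        exact Subgroup.mem_map_of_mem _ hyQ
      have hy'E : a * y * a⁻¹ ∈ E := by rwa [hRE] at hy'R
      have hy'c : a * y * a⁻¹ ∉ Subgroup.center G := fun h => hyc (conj_mem_center_iff.mp h)
      have hcz : cz (a * y * a⁻¹) = cz x := by
        apply H.cz_eq_of_central_in_E hpm hm' hl hx hE hy'E _ hy'c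
        intro z hz
        rw [← hRE, ← ha] at hz
        obtain ⟨w, hw, rfl⟩ := hz
        have h1 := hQ w hw
        change (a * y * a⁻¹) * (a * w * a⁻¹) = (a * w * a⁻¹) * (a * y * a⁻¹)
        calc (a * y * a⁻¹) * (a * w * a⁻¹) = a * (y * w) * a⁻¹ := by group
          _ = a * (w * y) * a⁻¹ := by rw [h1]
          _ = _ := by group
      refine ⟨a, fun u hu => ?_⟩
      rw [← hcz]
      exact conj_mem_cz hu
  -- every non-central element commutes with a non-central `r`-element
  have hviii : ∀ u : G, u ∉ Subgroup.center G → ∃ y ∈ cz u, y ∉ Subgroup.center G ∧ ∃ k : ℕ, y ^ r ^ k = 1 := by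
    intro u huc
    apply exists_noncentral_of_lt
    let T : Subgroup G := E ⊓ cz t
    have hTp : IsPGroup r T := hEr.to_le inf_le_left
    have hTC : T ≤ cz t ⊓ cz x := fun v hv => Subgroup.mem_inf.mpr ⟨hv.2, hE.le hv.1⟩
    have h1 : cW G r < T := by
      refine lt_of_le_of_ne ?_ ?_
      · rintro g ⟨hg, j, hj⟩
        refine Subgroup.mem_inf.mpr ⟨?_, center_le_cz t hg⟩
        exact hE.mem g (center_le_cz x hg) (coprime_of_pow_ne hp.out hr.out hpr hj)
      · intro h
        have h2 : t ∈ T := Subgroup.mem_inf.mpr ⟨htE, mem_cz_self t⟩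
        rw [← h] at h2
        exact htc h2.1
    have h2 : Nat.card (cW G r) < Nat.card T := card_lt_of_lt h1
    have h3 := card_le_ordProj hTC hTp
    refine lt_of_lt_of_le (h2.trans_le h3) ?_
    -- comparing the `r`-parts
    have h4 := Subgroup.card_mul_index (cz t ⊓ cz x)
    have h5 := Subgroup.card_mul_index (cz u)
    have hm0 : m ≠ 0 := by have := H.hm; omega
    have hn0 : n ≠ 0 := by have := H.hn; omega
    have h6 := Nat.ordProj_mul r (Nat.card_pos (α := (cz t ⊓ cz x : Subgroup G))).ne'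
      (Subgroup.index_ne_zero_of_finite (H := cz t ⊓ cz x))
    have h7 := Nat.ordProj_mul r (Nat.card_pos (α := cz u)).ne'
      (Subgroup.index_ne_zero_of_finite (H := cz u))
    rw [h4] at h6
    rw [h5] at h7
    rw [hidxC] at h6
    have h8 : ordProj[r] (cz u).index ≤ ordProj[r] (m * n) := by
      rcases H.index_of_noncentral huc with h | h <;> rw [h]
      apply Nat.le_of_dvd (pow_pos hr.out.pos _)
      exact Nat.ordProj_dvd_ordProj_of_dvd (Nat.mul_ne_zero hm0 hn0) (Dvd.intro _ rfl) r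
    have hpos : 0 < ordProj[r] (m * n) := pow_pos hr.out.pos _
    by_contra hlt
    push Not at hlt
    have : ordProj[r] (Nat.card (cz u)) * ordProj[r] (cz u).index <
        ordProj[r] (Nat.card (cz t ⊓ cz x : Subgroup G)) * ordProj[r] (m * n) :=
      lt_of_le_of_lt (Nat.mul_le_mul_left _ h8) (Nat.mul_lt_mul_of_pos_right hlt hpos)
    rw [← h6, ← h7] at this
    exact lt_irrefl _ this
  -- Jordan
  have hDtop : cz x = ⊤ := by
    apply eq_top_of_forall_conj_mem
    intro g
    by_cases hg : g ∈ Subgroup.center G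
    · exact ⟨1, by simpa using center_le_cz x hg⟩
    · obtain ⟨y, hy, hyc, hyk⟩ := hviii g hg
      obtain ⟨a, ha⟩ := hvii y hyk hyc
      exact ⟨a, ha g (mem_cz_comm.mp hy)⟩
  apply hxc
  rw [← index_cz_eq_one_iff, hDtop, Subgroup.index_top]

end WithE

end Hyp

end Hyp4

end Cfsg.Agent.Lib.Transfer.CoprimeSizes
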