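import Mathlib
import Cfsg.Agent.Lib.Transfer.CoprimeSizes4
import Cfsg.Agent.Lib.Transfer.Cor4

/-!
# Groups with class sizes `1, m, m n`: end of case II

`E` abelian: `C(x)` is abelian and normal, `m = p`, etc.
-/

set_option autoImplicit false
set_option linter.unusedSectionVars false
set_option linter.style.haveILetI false

open scoped Pointwise commutatorElement

namespace Cfsg.Agent.Lib.Transfer.CoprimeSizes

open Cfsg.Agent.Lib.Transfer.ClassSize
  (eq_top_of_forall_conj_mem exists_sylow_of_not_dvd_index centralizer_mul_of_coprime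
    normal_of_forall_not_dvd_index hasNormalPComplement_of_forall_not_dvd_index)
open Cfsg.Agent.Lib.Transfer.TwoGClassSizes
open Cfsg.Agent.Lib.Core.Residual (exists_pPart_pPrimePart)

variable {G : Type*} [Group G]

/-- Orbits of `A` on `Y \ Y₀`, all point stabilizers equal to `A₀`. -/
theorem relIndex_dvd_card_sdiff [Finite G] {A A₀ Y Y₀ : Subgroup G}
    (hn : ∀ a ∈ A, ∀ y ∈ Y, a * y * a⁻¹ ∈ Y) (hn₀ : ∀ a ∈ A, ∀ y ∈ Y₀, a * y * a⁻¹ ∈ Y₀)
    (hstab : ∀ a ∈ A, ∀ y ∈ Y, y ∉ Y₀ → (a * y * a⁻¹ = y ↔ a ∈ A₀)) :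
    A₀.relIndex A ∣ Nat.card {y : G // y ∈ Y ∧ y ∉ Y₀} := by
  classical
  let T := {y : G // y ∈ Y ∧ y ∉ Y₀}
  letI inst : MulAction A T :=
    { smul := fun a y => ⟨(a : G) * y.1 * (a : G)⁻¹, hn a a.2 y.1 y.2.1, fun h => y.2.2 (by
        have := hn₀ (a : G)⁻¹ (A.inv_mem a.2) _ h
        have e : (a : G)⁻¹ * ((a : G) * y.1 * (a : G)⁻¹) * ((a : G)⁻¹)⁻¹ = y.1 := by group
        rwa [e] at this)⟩
      one_smul := fun y => Subtype.ext (by
        show (1 : G) * y.1 * (1 : G)⁻¹ = y.1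
        group)
      mul_smul := fun a b y => Subtype.ext (by
        show ((a : G) * b) * y.1 * ((a : G) * b)⁻¹ = (a : G) * ((b : G) * y.1 * (b : G)⁻¹) * (a : G)⁻¹
        group) }
  have hst : ∀ y : T, MulAction.stabilizer A y = A₀.subgroupOf A := by
    intro y
    ext a
    rw [MulAction.mem_stabilizer_iff, Subgroup.mem_subgroupOf, ← hstab a a.2 y.1 y.2.1 y.2.2]
    constructor
    · intro h
      exact (congrArg Subtype.val h : ((a • y : T) : G) = y.1)
    · intro h
      exact Subtype.ext h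
  have horb : ∀ y : T, Nat.card (MulAction.orbit A y) = A₀.relIndex A := by
    intro y
    have h1 := MulAction.index_stabilizer A y
    rw [hst y] at h1
    show Nat.card (MulAction.orbit A y) = (A₀.subgroupOf A).index
    rw [h1, Nat.card_coe_set_eq]
  haveI : Fintype (MulAction.orbitRel.Quotient A T) := Fintype.ofFinite _
  rw [Nat.card_congr (MulAction.selfEquivSigmaOrbits A T), Nat.card_sigma]
  refine Finset.dvd_sum (fun ω _ => ?_)
  rw [horb]

theorem card_sdiff_add [Finite G] {Y Y₀ : Subgroup G} (hY₀ : Y₀ ≤ Y) :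
    Nat.card Y = Nat.card Y₀ + Nat.card {y : G // y ∈ Y ∧ y ∉ Y₀} := by
  have h1 : (Y₀ : Set G) ⊆ (Y : Set G) := hY₀
  have h2 := Set.ncard_sdiff_add_ncard_of_subset h1 (Set.toFinite _)
  have h3 : Nat.card {y : G // y ∈ Y ∧ y ∉ Y₀} = ((Y : Set G) \ (Y₀ : Set G)).ncard := by
    rw [← Nat.card_coe_set_eq]
    rfl
  have h4 : Nat.card Y = (Y : Set G).ncard := Nat.card_coe_set_eq (Y : Set G)
  have h5 : Nat.card Y₀ = (Y₀ : Set G).ncard := Nat.card_coe_set_eq (Y₀ : Set G)
  rw [h3, h4, h5]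
  omega

theorem comm_symm {a b : G} (h : a⁻¹ * (b * a * b⁻¹) ∈ Subgroup.center G) :
    b⁻¹ * (a * b * a⁻¹) ∈ Subgroup.center G := by
  have h1 := Subgroup.inv_mem _ h
  have h2 : (a * b⁻¹) * (a⁻¹ * (b * a * b⁻¹))⁻¹ * (a * b⁻¹)⁻¹ ∈ Subgroup.center G := by
    have h3 := Subgroup.mem_center_iff.mp h1 (a * b⁻¹)
    rw [h3, mul_inv_cancel_right]
    exact h1
  have e : (a * b⁻¹) * (a⁻¹ * (b * a * b⁻¹))⁻¹ * (a * b⁻¹)⁻¹ = b⁻¹ * (a * b * a⁻¹) := by group
  rwa [e] at h2

/-- Central `p`-elements lie in every Sylow `p`-subgroup. -/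
theorem cW_le_sylow [Finite G] {p : ℕ} [Fact p.Prime] (P : Sylow p G) : cW G p ≤ (P : Subgroup G) := by
  rintro z ⟨hz, k, hk⟩
  obtain ⟨Q, hQ⟩ := exists_sylow_mem hk
  obtain ⟨a, ha⟩ := MulAction.exists_smul_eq G Q P
  have h1 : a * z * a⁻¹ ∈ (P : Subgroup G) := by
    rw [← ha]
    exact Subgroup.mem_map_of_mem _ hQ
  rw [Subgroup.mem_center_iff.mp hz a] at h1
  simpa using h1

section Hyp5

variable [Finite G] {m n p : ℕ} [hp : Fact p.Prime]

namespace Hyp

variable (H : Hyp G m n) (hpm : p ∣ m) (hm' : ordProj[p] m = m)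
include H hpm hm'

section WithE

variable {x : G} {l : ℕ} (hl : x ^ p ^ l = 1) (hx : (cz x).index = m) {E : Subgroup G}
  (hE : IsE p x E) (hab : ∀ a ∈ E, ∀ b ∈ E, a * b = b * a)
include hl hx hE hab

omit hab in
theorem noncentral_x : x ∉ Subgroup.center G := by
  intro h
  rw [(index_cz_eq_one_iff x).mpr h] at hx
  exact H.hm.ne hx

omit hab in
theorem exists_noncentral_E : ∃ e ∈ E, e ∉ Subgroup.center G := by
  by_contra hcon
  push Not at hcon
  obtain ⟨g, hg⟩ := H.ex_mn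
  have hgc : g ∉ Subgroup.center G := by
    intro h
    rw [(index_cz_eq_one_iff g).mpr h] at hg
    have h1 := H.hm
    have h2 := H.hn
    have : 1 < m * n := by nlinarith
    omega
  have h1 : E ≤ cz g := fun y hy => center_le_cz g (hcon y hy)
  have h2 := H.index_eq_m_of_le hpm hm' hl hx hE h1 hgc
  rw [hg] at h2
  exact H.mn_ne_m h2

theorem cz_E {e : G} (he : e ∈ E) (hec : e ∉ Subgroup.center G) : cz e = cz x :=
  H.cz_eq_of_central_in_E hpm hm' hl hx hE he (fun y hy => hab e he y hy) hec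

theorem cz_P {t : G} (ht : t ∈ cz x) (htk : ∃ k : ℕ, t ^ p ^ k = 1) (htc : t ∉ Subgroup.center G) :
    cz t = cz x := by
  obtain ⟨k, hk⟩ := htk
  have htE : E ≤ cz t := by
    intro y hy
    rw [mem_cz]
    exact H.comm_E hpm hm' hl hx hE ht ⟨k, hk⟩ hy
  have hti := H.index_eq_m_of_le hpm hm' hl hx hE htE htc
  obtain ⟨E₁, hE₁⟩ := H.exists_isE hpm hm' hk hti
  have hEE : E = E₁ := eq_of_le_of_hall (p := p)
    (fun y hy => hE₁.mem y (htE hy) (hE.cop y hy)) hE₁.cardcop hE.idx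
  obtain ⟨e, he, hec⟩ := H.exists_noncentral_E hpm hm' hl hx hE
  have hle : cz t ≤ cz x := by
    rw [← H.cz_E hpm hm' hl hx hE hab he hec]
    intro g hg
    obtain ⟨a, b, rfl, ha, hak, hb, -⟩ := H.decomp hpm hm' hk hti hE₁ g hg
    rw [mem_cz]
    have he₁ : e ∈ E₁ := by rwa [← hEE]
    have h2 : Commute e a := (H.comm_E hpm hm' hk hti hE₁ ha hak he₁).symm
    have hb' : b ∈ E := by rwa [hEE]
    have h3 : Commute e b := hab e he b hb'
    exact (h2.mul_right h3).eq
  exact eq_of_le_of_index_eq hle (by rw [hti, hx])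

/-- `C(x)` is abelian. -/
theorem D_comm {g g' : G} (hg : g ∈ cz x) (hg' : g' ∈ cz x) : g * g' = g' * g := by
  obtain ⟨a, b, rfl, ha, hak, hb, -⟩ := H.decomp hpm hm' hl hx hE g' hg'
  have h1 : Commute g a := by
    by_cases hac : a ∈ Subgroup.center G
    · exact (Subgroup.mem_center_iff.mp hac g)
    · have h2 := H.cz_P hpm hm' hl hx hE hab ha hak hac
      rw [← h2] at hg
      exact (mem_cz.mp hg).symm
  have h3 : Commute g b := by
    by_cases hbc : b ∈ Subgroup.center G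
    · exact (Subgroup.mem_center_iff.mp hbc g)
    · have h2 := H.cz_E hpm hm' hl hx hE hab hb hbc
      rw [← h2] at hg
      exact (mem_cz.mp hg).symm
  exact (h1.mul_right h3).eq

theorem cz_D {v : G} (hv : v ∈ cz x) (hvc : v ∉ Subgroup.center G) : cz v = cz x := by
  have h1 : cz x ≤ cz v := by
    intro g hg
    rw [mem_cz]
    exact H.D_comm hpm hm' hl hx hE hab hv hg
  have h2 := Subgroup.index_dvd_of_le h1
  rw [hx] at h2
  rcases H.index_of_noncentral hvc with h | h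
  · exact (eq_of_le_of_index_eq h1 (by rw [h, hx])).symm
  · rw [h] at h2
    exact absurd h2 H.not_mn_dvd_m

omit hab in
theorem E_norm {b y : G} (hb : b ∈ Subgroup.normalizer ((cz x : Subgroup G) : Set G)) (hy : y ∈ E) :
    b * y * b⁻¹ ∈ E := by
  apply hE.mem _ ((Subgroup.mem_normalizer_iff.mp hb y).mp (hE.le hy))
  exact orderOf_conj_coprime (hE.cop y hy)

omit hab in
theorem mem_E_of_normalizer {b : G} (hb : b ∈ Subgroup.normalizer ((cz x : Subgroup G) : Set G))
    (hbo : (orderOf b).Coprime p) : b ∈ E := by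
  let N₀ : Subgroup G := Subgroup.normalizer ((cz x : Subgroup G) : Set G)
  let E₀ : Subgroup N₀ := E.subgroupOf N₀
  haveI hE₀ : E₀.Normal := by
    constructor
    intro z hz d
    rw [Subgroup.mem_subgroupOf] at hz ⊢
    exact H.E_norm hpm hm' hl hx hE d.2 hz
  have hEN : E ≤ N₀ := hE.le.trans Subgroup.le_normalizer
  obtain ⟨a, ha⟩ := hE.idx
  have h1 : E₀.index ∣ p ^ a := by
    rw [← ha]
    exact Subgroup.relIndex_dvd_index_of_le hEN
  obtain ⟨j, -, hj⟩ := (Nat.dvd_prime_pow hp.out).mp h1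
  let t : N₀ := ⟨b, hb⟩
  have h2 : t ^ E₀.index ∈ E₀ := Subgroup.pow_index_mem E₀ t
  have h3 : (E₀.index).Coprime (orderOf t) := by
    rw [hj, Subgroup.orderOf_mk]
    exact Nat.Coprime.pow_left _ hbo.symm
  obtain ⟨u, hu⟩ := exists_pow_eq_self_of_coprime h3
  have h4 : t ∈ E₀ := by
    rw [← hu]
    exact E₀.pow_mem h2 _
  rwa [Subgroup.mem_subgroupOf] at h4

/-- `C(x)` is normal. -/
theorem normal_D : (cz x).Normal := by
  have hxc := H.noncentral_x hpm hm' hl hx hE
  have hD : ∀ {v : G}, v ∈ cz x → v ∉ Subgroup.center G → cz v = cz x :=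
    fun hv hvc => H.cz_D hpm hm' hl hx hE hab hv hvc
  obtain ⟨Y, -, hY, hYp, hYc⟩ := H.exists_le_rho hpm hm' x (Y₀ := ⊥) bot_le IsPGroup.of_bot
  obtain ⟨P, hYP⟩ := hYp.exists_le_sylow
  have hcard := H.card_inf_eq hpm hm' P hxc hYP hY hYc
  have hdec : ∀ h : G, ∃ b ∈ (P : Subgroup G), ∃ d ∈ cz x, h = b * d := by
    apply exists_mul_of_card
    rw [hcard, H.card_sylow hpm hm' P, ← Subgroup.card_mul_index (cz x), hx]
    ring
  obtain ⟨t, htN, htc⟩ := H.exists_noncentral_of_rho_le hpm hm'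
    (P.isPGroup'.to_le inf_le_left : IsPGroup p ((P : Subgroup G) ⊓ cz x : Subgroup G)) hcard.ge
  obtain ⟨x₂, hx₂P, -, hx₂c, hx₂⟩ := exists_central_mod (N := ⊤) P.isPGroup'
    (Subgroup.mem_inf.mp htN).1 trivial htc
  by_cases hx₂D : x₂ ∈ cz x
  · have hcz := hD hx₂D hx₂c
    constructor
    intro d hd h
    obtain ⟨b, hb, d₀, hd₀, rfl⟩ := hdec h
    have h1 : d₀ * d * d₀⁻¹ ∈ cz x := (cz x).mul_mem ((cz x).mul_mem hd₀ hd) ((cz x).inv_mem hd₀)
    rw [← hcz] at h1
    have h2 := conj_mem_cz_of_central (hx₂ b hb) h1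
    rw [hcz] at h2
    have e : b * (d₀ * d * d₀⁻¹) * b⁻¹ = b * d₀ * d * (b * d₀)⁻¹ := by group
    rwa [e] at h2
  · -- `E` is normal
    have htD : t ∈ cz x := (Subgroup.mem_inf.mp htN).2
    have htP : t ∈ (P : Subgroup G) := (Subgroup.mem_inf.mp htN).1
    have hczt := hD htD htc
    have hx₂N : x₂ ∈ Subgroup.normalizer ((cz x : Subgroup G) : Set G) := by
      apply Cfsg.Agent.Lib.Transfer.Cor4.mem_normalizer_of_conj_mem
      intro d hd
      rw [← hczt] at hd ⊢
      exact conj_mem_cz_of_central (comm_symm (hx₂ t htP)) hd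
    have hconjN : ∀ h : G, h⁻¹ * x₂ * h ∈ Subgroup.normalizer ((cz x : Subgroup G) : Set G) := by
      intro h
      obtain ⟨b, hb, d₀, hd₀, rfl⟩ := hdec h
      have h1 := hx₂ b⁻¹ ((P : Subgroup G).inv_mem hb)
      set c := x₂⁻¹ * (b⁻¹ * x₂ * b⁻¹⁻¹) with hc
      have e : (b * d₀)⁻¹ * x₂ * (b * d₀) = d₀⁻¹ * (x₂ * c) * d₀ := by
        rw [hc]; group
      rw [e]
      have hd₀N : d₀ ∈ Subgroup.normalizer ((cz x : Subgroup G) : Set G) := Subgroup.le_normalizer hd₀
      have hcN : c ∈ Subgroup.normalizer ((cz x : Subgroup G) : Set G) :=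
        Subgroup.center_le_normalizer _ h1
      exact Subgroup.mul_mem _ (Subgroup.mul_mem _ (Subgroup.inv_mem _ hd₀N)
        (Subgroup.mul_mem _ hx₂N hcN)) hd₀N
    have hzpN : ∀ a ∈ Subgroup.zpowers x₂, ∀ h : G,
        h⁻¹ * a * h ∈ Subgroup.normalizer ((cz x : Subgroup G) : Set G) := by
      intro a ha h
      obtain ⟨i, rfl⟩ := Subgroup.mem_zpowers_iff.mp ha
      have e : h⁻¹ * x₂ ^ i * h = (h⁻¹ * x₂ * h) ^ i := by
        have := conj_zpow (a := h⁻¹) (b := x₂) (i := i)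
        simpa using this.symm
      rw [e]
      exact Subgroup.zpow_mem _ (hconjN h) i
    have hzpN1 : ∀ a ∈ Subgroup.zpowers x₂, a ∈ Subgroup.normalizer ((cz x : Subgroup G) : Set G) := by
      intro a ha
      have := hzpN a ha 1
      simpa using this
    obtain ⟨lx, hlx⟩ := exists_pow_of_isPGroup P.isPGroup' hx₂P
    have hEh : ∀ k ∈ E, ∀ h : G, h⁻¹ * k * h ∈ E := by
      intro k hk h
      let Eh : Subgroup G := E.map (MulAut.conj h).toMonoidHom
      have hmemEh : ∀ y : G, y ∈ Eh ↔ h⁻¹ * y * h ∈ E := by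
        intro y
        constructor
        · rintro ⟨w, hw, rfl⟩
          have e : h⁻¹ * (MulAut.conj h).toMonoidHom w * h = w := by
            change h⁻¹ * (h * w * h⁻¹) * h = w
            group
          rwa [e]
        · intro hy
          refine ⟨_, hy, ?_⟩
          change h * (h⁻¹ * y * h) * h⁻¹ = y
          group
      let N₁ : Subgroup G := E ⊓ Eh
      have hAK : Subgroup.zpowers x₂ ≤ Subgroup.normalizer (E : Set G) :=
        le_normalizer_of_forall (fun a ha y hy => H.E_norm hpm hm' hl hx hE (hzpN1 a ha) hy)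
      have hcop : (Nat.card (Subgroup.zpowers x₂)).Coprime (Nat.card E) := by
        rw [Nat.card_zpowers]
        exact Nat.Coprime.coprime_dvd_left (orderOf_dvd_of_pow_eq_one hlx)
          (Nat.Coprime.pow_left _ hE.cardcop.symm)
      have hAN : Subgroup.zpowers x₂ ≤ Subgroup.normalizer (N₁ : Set G) := by
        apply le_normalizer_of_forall
        intro a ha y hy
        refine Subgroup.mem_inf.mpr ⟨H.E_norm hpm hm' hl hx hE (hzpN1 a ha) hy.1, ?_⟩
        rw [hmemEh]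
        have hy2 := (hmemEh y).mp hy.2
        have h1 := H.E_norm hpm hm' hl hx hE (hzpN a ha h) hy2
        have e : h⁻¹ * (a * y * a⁻¹) * h = (h⁻¹ * a * h) * (h⁻¹ * y * h) * (h⁻¹ * a * h)⁻¹ := by group
        rwa [e]
      have hfix : ∀ a ∈ Subgroup.zpowers x₂, k⁻¹ * a * k * a⁻¹ ∈ N₁ := by
        intro a ha
        have hzE : k⁻¹ * a * k * a⁻¹ ∈ E := by
          have h1 := H.E_norm hpm hm' hl hx hE (hzpN1 a ha) hk
          have e : k⁻¹ * a * k * a⁻¹ = k⁻¹ * (a * k * a⁻¹) := by group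
          rw [e]
          exact E.mul_mem (E.inv_mem hk) h1
        refine Subgroup.mem_inf.mpr ⟨hzE, ?_⟩
        rw [hmemEh]
        apply H.mem_E_of_normalizer hpm hm' hl hx hE
        · have e : h⁻¹ * (k⁻¹ * a * k * a⁻¹) * h = (k * h)⁻¹ * a * (k * h) * (h⁻¹ * a * h)⁻¹ := by group
          rw [e]
          exact Subgroup.mul_mem _ (hzpN a ha _) (Subgroup.inv_mem _ (hzpN a ha h))
        · have := orderOf_conj_coprime (h := h⁻¹) (hE.cop _ hzE)
          simpa using this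
      obtain ⟨j, hj, hkj⟩ := Cfsg.Agent.Lib.Coprime.Action.exists_fixed_in_coset N₁ hAK hcop
        (Or.inl inferInstance) inf_le_left hAN hk hfix
      obtain ⟨hkjE, hkjc⟩ := Subgroup.mem_inf.mp hkj
      have hj2 := (hmemEh j).mp hj.2
      have he₀ : k * j ∈ Subgroup.center G := by
        by_contra hcon
        have h1 := H.cz_E hpm hm' hl hx hE hab hkjE hcon
        apply hx₂D
        rw [← h1, mem_cz]
        exact (Subgroup.mem_centralizer_iff.mp hkjc x₂ (Subgroup.mem_zpowers x₂)).symm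
      have e : h⁻¹ * k * h = (k * j) * (h⁻¹ * j * h)⁻¹ := by
        have h1 := Subgroup.mem_center_iff.mp he₀ h⁻¹
        have h2 : h⁻¹ * (k * j) * h = k * j := by
          rw [h1]
          group
        calc h⁻¹ * k * h = (h⁻¹ * (k * j) * h) * (h⁻¹ * j * h)⁻¹ := by group
          _ = _ := by rw [h2]
      rw [e]
      exact E.mul_mem hkjE (E.inv_mem hj2)
    obtain ⟨e₁, he₁, he₁c⟩ := H.exists_noncentral_E hpm hm' hl hx hE
    constructor
    intro d hd h
    have he₂ : h * e₁ * h⁻¹ ∈ E := by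
      have := hEh e₁ he₁ h⁻¹
      simpa using this
    have he₂c : h * e₁ * h⁻¹ ∉ Subgroup.center G := fun h3 => he₁c (conj_mem_center_iff.mp h3)
    rw [← H.cz_E hpm hm' hl hx hE hab he₂ he₂c]
    rw [← H.cz_E hpm hm' hl hx hE hab he₁ he₁c] at hd
    exact conj_mem_cz hd

/-- `m = p`. -/
theorem m_eq_p_of_caseII : m = p := by
  have hxc := H.noncentral_x hpm hm' hl hx hE
  haveI hDn := H.normal_D hpm hm' hl hx hE hab
  have hD : ∀ {v : G}, v ∈ cz x → v ∉ Subgroup.center G → cz v = cz x :=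
    fun hv hvc => H.cz_D hpm hm' hl hx hE hab hv hvc
  obtain ⟨P⟩ : Nonempty (Sylow p G) := inferInstance
  have hcard := H.card_inf_of_normalizes' hpm hm' hxc P (fun b _ d hd => hDn.conj_mem d hd b)
  have hrel := H.relIndex_eq hpm hm' P hcard
  rw [Subgroup.inf_relIndex_left] at hrel
  obtain ⟨t, htN, htc⟩ := H.exists_noncentral_of_rho_le hpm hm'
    (P.isPGroup'.to_le inf_le_left : IsPGroup p ((P : Subgroup G) ⊓ cz x : Subgroup G)) hcard.ge
  obtain ⟨x₃, hx₃P, hx₃D, hx₃c, hx₃⟩ := exists_central_mod (N := cz x) P.isPGroup'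
    (Subgroup.mem_inf.mp htN).1 (Subgroup.mem_inf.mp htN).2 htc
  have hcz := hD hx₃D hx₃c
  have hne : ¬ (P : Subgroup G) ≤ cz x₃ := by
    rw [hcz]
    intro h
    have h1 := Subgroup.relIndex_eq_one.mpr h
    rw [hrel] at h1
    exact H.hm.ne' h1
  have h := free_rank (T := (P : Subgroup G)) (Y := E) P.isPGroup' hx₃ hne
    (by
      intro hxp b _ hb
      have h1 : x₃ ^ p ∈ cz x := (cz x).pow_mem hx₃D p
      rw [hD h1 hxp] at hb
      rw [hcz]
      exact hb)
    hab hE.cop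
    (fun b _ y hy => hE.mem _ (hDn.conj_mem y (hE.le hy) b) (orderOf_conj_coprime (hE.cop y hy)))
    (by
      intro b _ hb y hy
      rw [hcz] at hb
      rw [H.D_comm hpm hm' hl hx hE hab hb (hE.le hy)]
      group)
    (by
      intro b _ hb y hy hby
      by_contra hyc
      rw [hcz] at hb
      apply hb
      rw [← H.cz_E hpm hm' hl hx hE hab hy hyc, mem_cz]
      conv_lhs => rw [← hby]
      group)
    (H.exists_noncentral_E hpm hm' hl hx hE)
  rw [hcz, hrel] at h
  exact h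

end WithE

end Hyp

end Hyp5

end Cfsg.Agent.Lib.Transfer.CoprimeSizes
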