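import Mathlib
import Cfsg.Agent.Lib.Transfer.CoprimeSizes5

/-!
# Groups with class sizes `1, p, p n`: the final structure, `S4284`.
-/

set_option autoImplicit false
set_option linter.unusedSectionVars false
set_option linter.style.haveILetI false

open scoped Pointwise commutatorElement

namespace Cfsg.Agent.Lib.Transfer.CoprimeSizes

open Cfsg.Agent.Lib.Transfer.ClassSize
  (eq_top_of_forall_conj_mem exists_sylow_of_not_dvd_index centralizer_mul_of_coprime
    normal_of_forall_not_dvd_index hasNormalPComplement_of_forall_not_dvd_index)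
open Cfsg.Agent.Lib.Transfer.TwoGClassSizes
open Cfsg.Agent.Lib.Core.Residual (exists_pPart_pPrimePart)

variable {G : Type*} [Group G]

section Hyp6

variable [Finite G] {n p : ℕ} [hp : Fact p.Prime]

namespace Hyp

variable (H : Hyp G p n) {x : G} {l : ℕ} (hl : x ^ p ^ l = 1) (hx : (cz x).index = p) {E : Subgroup G}
  (hE : IsE p x E) (hab : ∀ a ∈ E, ∀ b ∈ E, a * b = b * a)
include H hl hx hE hab

theorem hm'' : ordProj[p] p = p := by
  rw [hp.out.factorization_self, pow_one]

theorem normal_E : E.Normal := by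
  haveI hDn := H.normal_D (dvd_refl p) (H.hm'' hl hx hE hab) hl hx hE hab
  constructor
  intro y hy h
  exact hE.mem _ (hDn.conj_mem y (hE.le hy) h) (orderOf_conj_coprime (hE.cop y hy))

theorem relIndex_center_ne_one : (Subgroup.center G).relIndex E ≠ 1 := by
  intro h
  obtain ⟨e, he, hec⟩ := H.exists_noncentral_E (dvd_refl p) (H.hm'' hl hx hE hab) hl hx hE
  exact hec (Subgroup.relIndex_eq_one.mp h he)

theorem relIndex_center_coprime : ((Subgroup.center G).relIndex E).Coprime p :=
  Nat.Coprime.coprime_dvd_left (Subgroup.relIndex_dvd_card _ _) hE.cardcop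

theorem relIndex_cz_of_not_mem {g : G} (hg : g ∉ cz x) :
    (cz g).relIndex E = (Subgroup.center G).relIndex E := by
  have hinf : cz g ⊓ E = Subgroup.center G ⊓ E := by
    apply le_antisymm
    · rintro y ⟨hy1, hy2⟩
      refine Subgroup.mem_inf.mpr ⟨?_, hy2⟩
      by_contra hyc
      have h1 := H.cz_E (dvd_refl p) (H.hm'' hl hx hE hab) hl hx hE hab hy2 hyc
      apply hg
      rw [← h1]
      exact mem_cz_comm.mp hy1
    · exact inf_le_inf_right _ (center_le_cz g)
  rw [← Subgroup.inf_relIndex_right, hinf, Subgroup.inf_relIndex_right]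

/-- Elements outside `C(x)` have class size `p n`. -/
theorem index_of_not_mem {g : G} (hg : g ∉ cz x) : (cz g).index = p * n := by
  haveI := H.normal_E hl hx hE hab
  have hε1 := H.relIndex_center_ne_one hl hx hE hab
  have hεp := H.relIndex_center_coprime hl hx hE hab
  have hd : (Subgroup.center G).relIndex E ∣ (cz g).index := by
    rw [← H.relIndex_cz_of_not_mem hl hx hE hab hg]
    exact relIndex_dvd_index_of_normal_right
  rcases H.sizes g with h | h | h
  · rw [h] at hd
    exact absurd (Nat.dvd_one.mp hd) hε1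
  · rw [h] at hd
    exact absurd (Nat.Coprime.eq_one_of_dvd hεp hd) hε1
  · exact h

theorem dvd_n : (Subgroup.center G).relIndex E ∣ n := by
  haveI := H.normal_E hl hx hE hab
  haveI hDn := H.normal_D (dvd_refl p) (H.hm'' hl hx hE hab) hl hx hE hab
  have hεp := H.relIndex_center_coprime hl hx hE hab
  obtain ⟨g, hg⟩ := H.ex_mn
  by_cases hgD : g ∈ cz x
  · -- some element is outside
    obtain ⟨P⟩ : Nonempty (Sylow p G) := inferInstance
    have hpm : p ∣ p := dvd_rfl
    have hm' := H.hm'' hl hx hE hab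
    have hxc := H.noncentral_x hpm hm' hl hx hE
    have hgc : g ∉ Subgroup.center G := by
      intro h
      rw [(index_cz_eq_one_iff g).mpr h] at hg
      have h1 := H.hm
      have h2 := H.hn
      have : 1 < p * n := by nlinarith
      omega
    have h1 := H.cz_D hpm hm' hl hx hE hab hgD hgc
    rw [h1, hx] at hg
    exact absurd hg.symm H.mn_ne_m
  · have h1 := H.relIndex_cz_of_not_mem hl hx hE hab hgD
    have h2 : (Subgroup.center G).relIndex E ∣ (cz g).index := by
      rw [← h1]
      exact relIndex_dvd_index_of_normal_right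
    rw [hg] at h2
    exact hεp.dvd_of_dvd_mul_left h2

/-- The elements outside `C(x)`: `n = |E : E ∩ Z|`. -/
theorem n_eq : n = (Subgroup.center G).relIndex E := by
  have hpm : p ∣ p := dvd_rfl
  have hm' := H.hm'' hl hx hE hab
  have hxc := H.noncentral_x hpm hm' hl hx hE
  haveI hDn := H.normal_D hpm hm' hl hx hE hab
  haveI := H.normal_E hl hx hE hab
  obtain ⟨P⟩ : Nonempty (Sylow p G) := inferInstance
  have hcard := H.card_inf_of_normalizes' hpm hm' hxc P (fun b _ d hd => hDn.conj_mem d hd b)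
  have hrel := H.relIndex_eq hpm hm' P hcard
  rw [Subgroup.inf_relIndex_left] at hrel
  obtain ⟨g, hgP, hgD⟩ : ∃ g ∈ (P : Subgroup G), g ∉ cz x := by
    by_contra hcon
    push Not at hcon
    have h1 := Subgroup.relIndex_eq_one.mpr (show (P : Subgroup G) ≤ cz x from hcon)
    rw [hrel] at h1
    exact H.hm.ne' h1
  have hgc : g ∉ Subgroup.center G := fun h => hgD (center_le_cz x h)
  have hgi := H.index_of_not_mem hl hx hE hab hgD
  apply Nat.dvd_antisymm _ (H.dvd_n hl hx hE hab)
  -- `ρ |E ∩ Z|` divides `|C(g)|`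
  have h1 : rho G p p ∣ Nat.card (cz g) := by
    rw [← H.rho_spec hpm hm' hgc]
    exact Nat.ordProj_dvd _ _
  have h2 : Nat.card (Subgroup.center G ⊓ E : Subgroup G) ∣ Nat.card (cz g) :=
    Subgroup.card_dvd_of_le (inf_le_left.trans (center_le_cz g))
  have hrp : ∃ j, rho G p p = p ^ j := by
    rw [← H.rho_spec hpm hm' hgc]
    exact ⟨_, rfl⟩
  obtain ⟨j, hj⟩ := hrp
  have hcop : (rho G p p).Coprime (Nat.card (Subgroup.center G ⊓ E : Subgroup G)) := by
    rw [hj]
    apply Nat.Coprime.pow_left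
    apply Nat.Coprime.coprime_dvd_right (Subgroup.card_dvd_of_le inf_le_right)
    exact hE.cardcop.symm
  obtain ⟨c, hc⟩ := hcop.mul_dvd_of_dvd_of_dvd h1 h2
  -- orders
  have h3 := Subgroup.card_mul_index (cz g)
  rw [hgi, hc] at h3
  have h4 := Subgroup.card_mul_index E
  obtain ⟨a, ha⟩ := hE.idx
  have h5 : p ^ a = rho G p p * p := by
    rw [← H.card_sylow hpm hm' P, P.card_eq_multiplicity, ← h4, ha,
      Nat.ordProj_mul p Nat.card_pos.ne' (pow_ne_zero _ hp.out.ne_zero),
      Nat.factorization_eq_zero_of_not_dvd (fun h => ?_)]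
    · rw [hp.out.factorization_pow]
      simp
    · have := Nat.dvd_gcd h dvd_rfl
      rw [hE.cardcop.gcd_eq_one] at this
      exact hp.out.one_lt.ne' (Nat.dvd_one.mp this)
  have h6 := card_inf_mul_relIndex (Subgroup.center G) E
  rw [ha, h5, ← h6] at h4
  have hw : 0 < Nat.card (Subgroup.center G ⊓ E : Subgroup G) := Nat.card_pos
  have hρ : 0 < rho G p p := H.rho_pos hpm hm'
  have h7 : c * n = (Subgroup.center G).relIndex E := by
    have hpp := hp.out.pos
    have : (rho G p p * Nat.card (Subgroup.center G ⊓ E : Subgroup G) * p) * (c * n) =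
        (rho G p p * Nat.card (Subgroup.center G ⊓ E : Subgroup G) * p) *
          (Subgroup.center G).relIndex E := by
      calc _ = rho G p p * Nat.card (Subgroup.center G ⊓ E : Subgroup G) * c * (p * n) := by ring
        _ = Nat.card G := h3
        _ = _ := by rw [← h4]; ring
    exact Nat.eq_of_mul_eq_mul_left (by positivity) this
  exact Dvd.intro_left _ h7

theorem dvd_pred : p ∣ n - 1 := by
  have hpm : p ∣ p := dvd_rfl
  have hm' := H.hm'' hl hx hE hab
  have hxc := H.noncentral_x hpm hm' hl hx hE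
  haveI hDn := H.normal_D hpm hm' hl hx hE hab
  haveI hEn := H.normal_E hl hx hE hab
  obtain ⟨P⟩ : Nonempty (Sylow p G) := inferInstance
  have hcard := H.card_inf_of_normalizes' hpm hm' hxc P (fun b _ d hd => hDn.conj_mem d hd b)
  have hrel := H.relIndex_eq hpm hm' P hcard
  have h1 := relIndex_dvd_card_sdiff (A := (P : Subgroup G)) (A₀ := (P : Subgroup G) ⊓ cz x) (Y := E)
    (Y₀ := Subgroup.center G ⊓ E)
    (fun a _ y hy => hEn.conj_mem y hy a)
    (by
      rintro a - y ⟨hy1, hy2⟩
      have : a * y * a⁻¹ = y := by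
        rw [(Subgroup.mem_center_iff.mp hy1) a]
        group
      rw [this]
      exact ⟨hy1, hy2⟩)
    (by
      intro a ha y hy hy0
      have hyc : y ∉ Subgroup.center G := fun h => hy0 (Subgroup.mem_inf.mpr ⟨h, hy⟩)
      have hcz := H.cz_E hpm hm' hl hx hE hab hy hyc
      constructor
      · intro h
        refine Subgroup.mem_inf.mpr ⟨ha, ?_⟩
        rw [← hcz, mem_cz]
        conv_lhs => rw [← h]
        group
      · intro h3
        have h4 := (Subgroup.mem_inf.mp h3).2
        rw [← hcz] at h4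
        rw [(mem_cz.mp h4).symm]
        group)
  rw [hrel] at h1
  have h2 := card_sdiff_add (inf_le_right : Subgroup.center G ⊓ E ≤ E)
  have h3 := card_inf_mul_relIndex (Subgroup.center G) E
  rw [← H.n_eq hl hx hE hab] at h3
  have hn1 : 1 ≤ n := H.hn.le
  have h4 : Nat.card {y : G // y ∈ E ∧ y ∉ Subgroup.center G ⊓ E} =
      Nat.card (Subgroup.center G ⊓ E : Subgroup G) * (n - 1) := by
    obtain ⟨n', rfl⟩ : ∃ n', n = n' + 1 := ⟨n - 1, by omega⟩
    simp only [Nat.add_sub_cancel]
    rw [mul_add, mul_one] at h3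
    omega
  rw [h4] at h1
  have hcop : p.Coprime (Nat.card (Subgroup.center G ⊓ E : Subgroup G)) :=
    Nat.Coprime.coprime_dvd_right (Subgroup.card_dvd_of_le inf_le_right) hE.cardcop.symm
  exact hcop.dvd_of_dvd_mul_left h1

/-- The commutator subgroup of a Sylow `p`-subgroup has order `p`. -/
theorem card_commutator (P : Sylow p G) : Nat.card (commutator (P : Subgroup G)) = p := by
  have hpm : p ∣ p := dvd_rfl
  have hm' := H.hm'' hl hx hE hab
  have hxc := H.noncentral_x hpm hm' hl hx hE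
  haveI hDn := H.normal_D hpm hm' hl hx hE hab
  haveI hEn := H.normal_E hl hx hE hab
  have hD : ∀ {v : G}, v ∈ cz x → v ∉ Subgroup.center G → cz v = cz x :=
    fun hv hvc => H.cz_D hpm hm' hl hx hE hab hv hvc
  have hcard := H.card_inf_of_normalizes' hpm hm' hxc P (fun b _ d hd => hDn.conj_mem d hd b)
  have hrel₁ := H.relIndex_eq hpm hm' P hcard
  have hrel := hrel₁
  rw [Subgroup.inf_relIndex_left] at hrel
  obtain ⟨t, htN, htc⟩ := H.exists_noncentral_of_rho_le hpm hm'
    (P.isPGroup'.to_le inf_le_left : IsPGroup p ((P : Subgroup G) ⊓ cz x : Subgroup G)) hcard.ge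
  obtain ⟨x₃, hx₃P, hx₃D, hx₃c, hx₃⟩ := exists_central_mod (N := cz x) P.isPGroup'
    (Subgroup.mem_inf.mp htN).1 (Subgroup.mem_inf.mp htN).2 htc
  have hcz := hD hx₃D hx₃c
  obtain ⟨g, hgP, hgD⟩ : ∃ g ∈ (P : Subgroup G), g ∉ cz x := by
    by_contra hcon
    push Not at hcon
    have h1 := Subgroup.relIndex_eq_one.mpr (show (P : Subgroup G) ≤ cz x from hcon)
    rw [hrel] at h1
    exact H.hm.ne' h1
  have hgc : g ∉ Subgroup.center G := fun h => hgD (center_le_cz x h)
  obtain ⟨lg, hlg⟩ := exists_pow_of_isPGroup P.isPGroup' hgP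
  -- `|C_P(g)| = ρ`.
  have hP3 : Nat.card ((P : Subgroup G) ⊓ cz g : Subgroup G) = rho G p p := by
    obtain ⟨Y, hgY, hY, hYp, hYc⟩ := H.exists_le_rho hpm hm' g (Y₀ := Subgroup.zpowers g)
      ((Subgroup.zpowers_le).mpr (mem_cz_self g)) (isPGroup_zpowers hlg)
    obtain ⟨a, ha⟩ := exists_conj_into P hYp
    -- `a = b e`
    have hinf : (P : Subgroup G) ⊓ E = ⊥ := by
      rw [eq_bot_iff]
      rintro y ⟨hy1, hy2⟩
      obtain ⟨k, hk⟩ := exists_pow_of_isPGroup P.isPGroup' hy1
      exact Subgroup.mem_bot.mpr (eq_one_of_pow_of_coprime (hE.cop y hy2) hk)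
    have hdec : ∀ h : G, ∃ b ∈ (P : Subgroup G), ∃ e ∈ E, h = b * e := by
      apply exists_mul_of_card
      rw [hinf]
      have h4 := Subgroup.card_mul_index E
      obtain ⟨a', ha'⟩ := hE.idx
      have h5 : p ^ a' = Nat.card (P : Subgroup G) := by
        rw [P.card_eq_multiplicity, ← h4, ha',
          Nat.ordProj_mul p Nat.card_pos.ne' (pow_ne_zero _ hp.out.ne_zero),
          Nat.factorization_eq_zero_of_not_dvd (fun h => ?_)]
        · rw [hp.out.factorization_pow]
          simp
        · have := Nat.dvd_gcd h dvd_rfl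
          rw [hE.cardcop.gcd_eq_one] at this
          exact hp.out.one_lt.ne' (Nat.dvd_one.mp this)
      rw [← h4, ha', h5]
      simp [mul_comm]
    obtain ⟨b, hb, e, he, rfl⟩ := hdec a
    have hinP : ∀ v ∈ Y, e * v * e⁻¹ ∈ (P : Subgroup G) := by
      intro v hv
      have h1 := ha (mem_map_conj (a := b * e) hv)
      have h2 := (P : Subgroup G).mul_mem ((P : Subgroup G).mul_mem ((P : Subgroup G).inv_mem hb) h1) hb
      have e2 : b⁻¹ * (b * e * v * (b * e)⁻¹) * b = e * v * e⁻¹ := by group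
      rwa [e2] at h2
    have hgy : g ∈ Y := hgY (Subgroup.mem_zpowers g)
    have hfix : e * g * e⁻¹ = g := by
      have h1 := hinP g hgy
      have h2 : (e * g * e⁻¹) * g⁻¹ ∈ (P : Subgroup G) :=
        (P : Subgroup G).mul_mem h1 ((P : Subgroup G).inv_mem hgP)
      have h3 : (e * g * e⁻¹) * g⁻¹ ∈ E := by
        have h4 := hEn.conj_mem _ (E.inv_mem he) g
        have e2 : (e * g * e⁻¹) * g⁻¹ = e * (g * e⁻¹ * g⁻¹) := by group
        rw [e2]
        exact E.mul_mem he h4
      have h5 : (e * g * e⁻¹) * g⁻¹ ∈ (P : Subgroup G) ⊓ E := Subgroup.mem_inf.mpr ⟨h2, h3⟩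
      rw [hinf, Subgroup.mem_bot] at h5
      exact mul_inv_eq_one.mp h5
    have hYm : Y.map (MulAut.conj e).toMonoidHom ≤ (P : Subgroup G) := by
      rintro _ ⟨v, hv, rfl⟩
      exact hinP v hv
    have hYm2 : Y.map (MulAut.conj e).toMonoidHom ≤ cz g := by
      rintro _ ⟨v, hv, rfl⟩
      have h1 := conj_mem_cz (a := e) (hY hv)
      rw [hfix] at h1
      exact h1
    exact H.card_inf_eq hpm hm' P hgc hYm hYm2 (by rwa [card_map_conj])
  have hrel₃ := H.relIndex_eq hpm hm' P hP3
  -- `P₁ ∩ P₃ ≤ Z`.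
  have hcW₁ : cW G p ≤ (P : Subgroup G) ⊓ cz x :=
    le_inf (cW_le_sylow P) (fun z hz => center_le_cz x hz.1)
  have hmeet : ((P : Subgroup G) ⊓ cz x) ⊓ ((P : Subgroup G) ⊓ cz g) ≤ cW G p := by
    rintro a ⟨⟨ha1, ha2⟩, ⟨-, ha3⟩⟩
    refine ⟨?_, exists_pow_of_isPGroup P.isPGroup' ha1⟩
    by_contra hac
    have h1 := hD ha2 hac
    apply hgD
    rw [← h1]
    exact mem_cz_comm.mp ha3
  have hcm := card_mul_card_le (L := (P : Subgroup G)) inf_le_left inf_le_left hmeet
  rw [hcard, hP3, H.card_sylow hpm hm' P] at hcm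
  have hρ := H.rho_pos hpm hm'
  have hρ2 : rho G p p ≤ p * Nat.card (cW G p) := by
    have : rho G p p * rho G p p ≤ rho G p p * (p * Nat.card (cW G p)) := by
      calc _ ≤ _ := hcm
        _ = _ := by ring
    exact Nat.le_of_mul_le_mul_left this hρ
  have hζ := H.cW_lt_rho hpm hm'
  -- `|P₁ : W| = p`
  have hW := card_inf_mul_relIndex (cW G p) ((P : Subgroup G) ⊓ cz x)
  rw [inf_eq_left.mpr hcW₁, hcard] at hW
  have hrW : (cW G p).relIndex ((P : Subgroup G) ⊓ cz x) = p := by
    have h1 : (cW G p).relIndex ((P : Subgroup G) ⊓ cz x) ∣ rho G p p := by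
      rw [← hW]
      exact Dvd.intro_left _ rfl
    have hrp : ∃ j, rho G p p = p ^ j := by
      rw [← H.rho_spec hpm hm' hxc]
      exact ⟨_, rfl⟩
    obtain ⟨j, hj⟩ := hrp
    rw [hj] at h1
    obtain ⟨i, -, hi⟩ := (Nat.dvd_prime_pow hp.out).mp h1
    rw [← hj] at h1
    have hζ0 : 0 < Nat.card (cW G p) := Nat.card_pos
    rw [hi] at hW ⊢
    rcases i with _ | _ | i
    · exfalso
      simp only [pow_zero, mul_one] at hW
      omega
    · simp
    · exfalso
      have h2 : p * p ≤ p ^ (i + 1 + 1) := by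
        calc p * p = p ^ 2 := (sq p).symm
          _ ≤ _ := Nat.pow_le_pow_right hp.out.pos (by omega)
      have h3 : p ≥ 2 := hp.out.two_le
      have h4 : Nat.card (cW G p) * (p * p) ≤ rho G p p := by
        rw [← hW]
        exact Nat.mul_le_mul_left _ h2
      have h5 : Nat.card (cW G p) * (p * p) ≤ p * Nat.card (cW G p) := h4.trans hρ2
      have h6 : p * (Nat.card (cW G p) * p) ≤ p * Nat.card (cW G p) := by
        calc _ = Nat.card (cW G p) * (p * p) := by ring
          _ ≤ _ := h5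
      have h7 := Nat.le_of_mul_le_mul_left h6 hp.out.pos
      nlinarith
  have hP₁p : IsPGroup p ((P : Subgroup G) ⊓ cz x : Subgroup G) := P.isPGroup'.to_le inf_le_left
  have hx₃P₁ : x₃ ∈ (P : Subgroup G) ⊓ cz x := Subgroup.mem_inf.mpr ⟨hx₃P, hx₃D⟩
  have hx₃W : x₃ ∉ cW G p := fun h => hx₃c h.1
  -- the commutator
  have hθ := hx₃ g hgP
  set c := x₃⁻¹ * (g * x₃ * g⁻¹) with hc
  have hc1 : c ≠ 1 := by
    intro h
    apply hgD
    rw [← hcz, mem_cz]
    rw [hc, inv_mul_eq_one] at h
    calc x₃ * g = (g * x₃ * g⁻¹) * g := by rw [← h]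
      _ = g * x₃ := by group
  have hx₃pW : x₃ ^ p ∈ cW G p := pow_mem_of_relIndex hP₁p hrW hx₃P₁
  have hcp : c ^ p = 1 := by
    have h1 : g * x₃ * g⁻¹ = x₃ * c := by rw [hc]; group
    have hcx : Commute x₃ c := (Subgroup.mem_center_iff.mp hθ x₃)
    have h2 : g * x₃ ^ p * g⁻¹ = x₃ ^ p := by
      rw [(Subgroup.mem_center_iff.mp hx₃pW.1) g]
      group
    rw [← conj_pow, h1, hcx.mul_pow] at h2
    exact mul_left_cancel (h2.trans (mul_one _).symm)
  have hord : orderOf c = p := orderOf_eq_prime hcp hc1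
  let C₀ : Subgroup G := Subgroup.zpowers c
  have hC₀c : C₀ ≤ Subgroup.center G := (Subgroup.zpowers_le).mpr hθ
  haveI hC₀n : C₀.Normal := by
    constructor
    intro y hy h
    rw [(Subgroup.mem_center_iff.mp (hC₀c hy)) h]
    simpa using hy
  let π : G →* G ⧸ C₀ := QuotientGroup.mk' C₀
  have hAB : Commute (π g) (π x₃) := by
    have h1 : π (g * x₃ * g⁻¹) = π x₃ := by
      have h2 : g * x₃ * g⁻¹ = x₃ * c := by rw [hc]; group
      rw [h2, map_mul]
      have h3 : π c = 1 := (QuotientGroup.eq_one_iff c).mpr (Subgroup.mem_zpowers c)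
      rw [h3, mul_one]
    rw [map_mul, map_mul, map_inv] at h1
    have h2 : π g * π x₃ = π x₃ * π g := by
      conv_rhs => rw [← h1]
      group
    exact h2
  have hZc : ∀ z ∈ Subgroup.center G, ∀ y : G, Commute (π z) (π y) := by
    intro z hz y
    have h1 : Commute z y := (Subgroup.mem_center_iff.mp hz y).symm
    exact h1.map π
  have hdec : ∀ a ∈ (P : Subgroup G), ∃ i j : ℕ, ∃ z ∈ Subgroup.center G, a = g ^ i * (x₃ ^ j * z) := by
    intro a ha
    obtain ⟨i, a₁, ha₁, rfl⟩ := exists_pow_mul P.isPGroup' hrel₁ hgP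
      (fun h => hgD (Subgroup.mem_inf.mp h).2) ha
    obtain ⟨j, z, hz, rfl⟩ := exists_pow_mul hP₁p hrW hx₃P₁ hx₃W ha₁
    exact ⟨i, j, z, hz.1, rfl⟩
  have hle : ⁅(P : Subgroup G), (P : Subgroup G)⁆ ≤ C₀ := by
    rw [Subgroup.commutator_le]
    intro a ha a' ha'
    obtain ⟨i, j, z, hz, rfl⟩ := hdec a ha
    obtain ⟨i', j', z', hz', rfl⟩ := hdec a' ha'
    rw [← QuotientGroup.eq_one_iff, ← QuotientGroup.mk'_apply]
    change π _ = 1
    rw [map_commutatorElement, commutatorElement_eq_one_iff_commute]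
    simp only [map_mul, map_pow]
    have hz1 := fun y => hZc z hz y
    have hz2 := fun y => hZc z' hz' y
    have h1 : Commute (π g ^ i) (π g ^ i' * (π x₃ ^ j' * π z')) :=
      ((Commute.refl (π g)).pow_pow i i').mul_right
        ((hAB.pow_pow i j').mul_right ((hz2 g).symm.pow_left i))
    have h2 : Commute (π x₃ ^ j) (π g ^ i' * (π x₃ ^ j' * π z')) :=
      ((hAB.symm.pow_pow j i')).mul_right
        (((Commute.refl (π x₃)).pow_pow j j').mul_right ((hz2 x₃).symm.pow_left j))
    have h3 : Commute (π z) (π g ^ i' * (π x₃ ^ j' * π z')) :=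
      ((hz1 g).pow_right i').mul_right (((hz1 x₃).pow_right j').mul_right (hz1 z'))
    exact h1.mul_left (h2.mul_left h3)
  have hge : C₀ ≤ ⁅(P : Subgroup G), (P : Subgroup G)⁆ := by
    rw [Subgroup.zpowers_le]
    have h1 : c = ⁅x₃⁻¹, g⁆ := by
      rw [hc, commutatorElement_def]
      group
    rw [h1]
    exact Subgroup.commutator_mem_commutator ((P : Subgroup G).inv_mem hx₃P) hgP
  have heq : ⁅(P : Subgroup G), (P : Subgroup G)⁆ = C₀ := le_antisymm hle hge
  have h9 : Nat.card (commutator (P : Subgroup G)) = Nat.card C₀ := by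
    rw [← heq, ← Subgroup.map_subtype_commutator]
    exact (Subgroup.card_map_of_injective (P : Subgroup G).subtype_injective).symm
  rw [h9, Nat.card_zpowers, hord]

end Hyp

end Hyp6

/-- Primes dividing `|G|` divide `m n`, if `G` has no abelian direct factor. -/
theorem primes_dvd [Finite G] {m n : ℕ} (H : Hyp G m n)
    (hnodf : ∀ A B : Subgroup G, A.Normal → B.Normal → A ⊓ B = ⊥ → A ⊔ B = ⊤ → IsMulCommutative A → A = ⊥)
    (q : ℕ) (hq : q.Prime) (hqG : q ∣ Nat.card G) : q ∣ m * n := by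
  by_contra hqmn
  haveI : Fact q.Prime := ⟨hq⟩
  have hidx : ∀ g : G, ¬ q ∣ (cz g).index := by
    intro g h
    rcases H.sizes g with h1 | h1 | h1 <;> rw [h1] at h
    · exact hq.one_lt.ne' (Nat.dvd_one.mp h)
    · exact hqmn (h.trans (Dvd.intro _ rfl))
    · exact hqmn h
  obtain ⟨S⟩ : Nonempty (Sylow q G) := inferInstance
  have hK : Subgroup.centralizer ((S : Subgroup G) : Set G) = ⊤ := by
    apply eq_top_of_forall_conj_mem
    intro g
    obtain ⟨Q, -, hQ⟩ := exists_sylow_of_not_dvd_index q (y := g) (u := 1) (hidx g)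
      (Commute.one_left g) ⟨0, by simp⟩
    obtain ⟨a, ha⟩ := MulAction.exists_smul_eq G Q S
    refine ⟨a, ?_⟩
    rw [Subgroup.mem_centralizer_iff]
    intro z hz
    have hz' : z ∈ (a • Q : Sylow q G) := by rw [ha]; exact hz
    obtain ⟨w, hw, rfl⟩ := hz'
    have h1 := hQ w hw
    change (a * w * a⁻¹) * (a * g * a⁻¹) = (a * g * a⁻¹) * (a * w * a⁻¹)
    calc (a * w * a⁻¹) * (a * g * a⁻¹) = a * (w * g) * a⁻¹ := by group
      _ = a * (g * w) * a⁻¹ := by rw [h1]
      _ = _ := by group
  have hcentral : ∀ z ∈ (S : Subgroup G), ∀ g : G, g * z = z * g := by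
    intro z hz g
    have h1 : g ∈ Subgroup.centralizer ((S : Subgroup G) : Set G) := by rw [hK]; trivial
    exact (Subgroup.mem_centralizer_iff.mp h1 z hz).symm
  haveI hSn : (S : Subgroup G).Normal := by
    constructor
    intro y hy g
    rw [hcentral y hy g]
    simpa using hy
  have hcop : Nat.Coprime (Nat.card (S : Subgroup G)) (S : Subgroup G).index := by
    obtain ⟨k, hk⟩ := IsPGroup.iff_card.mp S.isPGroup'
    rw [hk]
    exact Nat.Coprime.pow_left k ((Nat.Prime.coprime_iff_not_dvd hq).mpr S.not_dvd_index)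
  obtain ⟨N, hN⟩ := Subgroup.exists_right_complement'_of_coprime hcop
  have hNn : N.Normal := by
    apply Subgroup.normalizer_eq_top_iff.mp
    have h1 := hN.sup_eq_top
    rw [eq_top_iff, ← h1, sup_le_iff]
    constructor
    · intro z hz
      apply Subgroup.centralizer_le_normalizer
      rw [Subgroup.mem_centralizer_iff]
      intro y _
      exact hcentral z hz y
    · exact Subgroup.le_normalizer
  have hS := hnodf _ N hSn hNn hN.disjoint.eq_bot hN.sup_eq_top
    ⟨⟨fun a b => Subtype.ext (hcentral b b.2 a)⟩⟩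
  have h1 : Nat.card (S : Subgroup G) = 1 := by
    rw [hS]
    exact Subgroup.card_bot
  rw [S.card_eq_multiplicity] at h1
  have h2 : 1 ≤ (Nat.card G).factorization q :=
    (Nat.Prime.dvd_iff_one_le_factorization hq Nat.card_pos.ne').mp hqG
  have h3 : q ≤ q ^ (Nat.card G).factorization q := by
    calc q = q ^ 1 := (pow_one q).symm
      _ ≤ _ := Nat.pow_le_pow_right hq.pos h2
  have := hq.two_le
  omega

/-- The theorem `S4284`. -/
theorem main [Finite G] {m n : ℕ} (H : Hyp G m n)
    (hnodf : ∀ A B : Subgroup G, A.Normal → B.Normal → A ⊓ B = ⊥ → A ⊔ B = ⊤ → IsMulCommutative A → A = ⊥) :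
    m.Prime ∧ m ∣ n - 1 ∧
      (∃ M : Subgroup G, M.Normal ∧
        (M : Set G) = {x : G | (cz x).index = 1 ∨ (cz x).index = m} ∧ M.index = m ∧ IsMulCommutative M) ∧
      (∃ N : Subgroup G, N.Normal ∧ (Nat.card N).Coprime m ∧ ∃ a : ℕ, N.index = m ^ a) ∧
      ∀ P : Sylow m G, Nat.card (commutator (P : Subgroup G)) = m := by
  obtain ⟨p, hpp, e, hme, he⟩ := H.exists_prime_pow
  haveI hp : Fact p.Prime := ⟨hpp⟩
  have hpm : p ∣ m := by
    rw [hme]
    exact dvd_pow_self p (by omega)
  have hm' : ordProj[p] m = m := by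
    rw [hme, hpp.factorization_pow]
    simp
  by_cases hcase : ∃ x : G, (∃ k : ℕ, x ^ p ^ k = 1) ∧ (cz x).index = m
  · obtain ⟨x, ⟨l, hl⟩, hx⟩ := hcase
    obtain ⟨E, hE⟩ := H.exists_isE hpm hm' hl hx
    have hab : ∀ a ∈ E, ∀ b ∈ E, a * b = b * a := by
      by_contra hcon
      push Not at hcon
      obtain ⟨a, ha, b, hb, hne⟩ := hcon
      exact H.false_of_nonabelian hpm hm' hl hx hE (primes_dvd H hnodf) ha hb hne
    have hmp := H.m_eq_p_of_caseII hpm hm' hl hx hE hab
    subst hmp
    haveI hDn := H.normal_D hpm hm' hl hx hE hab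
    have hEn := H.normal_E hl hx hE hab
    have hxc := H.noncentral_x hpm hm' hl hx hE
    refine ⟨hpp, H.dvd_pred hl hx hE hab, ⟨cz x, hDn, ?_, hx, ?_⟩, ⟨E, hEn, hE.cardcop, ?_⟩,
      fun P => H.card_commutator hl hx hE hab P⟩
    · ext g
      simp only [SetLike.mem_coe, Set.mem_ofPred_eq]
      constructor
      · intro hg
        by_cases hgc : g ∈ Subgroup.center G
        · exact Or.inl ((index_cz_eq_one_iff g).mpr hgc)
        · right
          rw [H.cz_D hpm hm' hl hx hE hab hg hgc, hx]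
      · intro hg
        by_contra hgD
        have h1 := H.index_of_not_mem hl hx hE hab hgD
        rcases hg with h2 | h2
        · rw [h1] at h2
          have h3 := H.hm
          have h4 := H.hn
          nlinarith
        · rw [h1] at h2
          exact H.mn_ne_m h2
    · exact ⟨⟨fun a b => Subtype.ext (H.D_comm hpm hm' hl hx hE hab a.2 b.2)⟩⟩
    · exact hE.idx
  · exfalso
    have hI : ∀ x : G, (∃ k : ℕ, x ^ p ^ k = 1) → x ∉ Subgroup.center G → (cz x).index = m * n := by
      intro x hxk hxc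
      rcases H.index_of_noncentral hxc with h | h
      · exact absurd ⟨x, hxk, h⟩ hcase
      · exact h
    have hmp := H.m_eq_p hpm hm' hI
    subst hmp
    exact H.false_of_caseI hI

/-- From the set of class sizes. -/
theorem hyp_of_range {m n : ℕ} (hm : 1 < m) (hn : 1 < n) (hcop : m.Coprime n)
    (h : Set.range (fun x : G => (Subgroup.centralizer ({x} : Set G)).index) = ({1, m, m * n} : Set ℕ)) :
    Hyp G m n := by
  refine ⟨hm, hn, hcop, ?_, ?_, ?_⟩
  · intro g
    have h1 : (Subgroup.centralizer ({g} : Set G)).index ∈ ({1, m, m * n} : Set ℕ) := by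
      rw [← h]
      exact ⟨g, rfl⟩
    simpa using h1
  · have h1 : m ∈ Set.range (fun x : G => (Subgroup.centralizer ({x} : Set G)).index) := by
      rw [h]
      simp
    exact h1
  · have h1 : m * n ∈ Set.range (fun x : G => (Subgroup.centralizer ({x} : Set G)).index) := by
      rw [h]
      simp
    exact h1

end Cfsg.Agent.Lib.Transfer.CoprimeSizes
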