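import Cfsg.Agent.Lib.Transfer.Focal

/-!
# Iterated focal subgroups

`S0557`: a Hall subgroup whose focal series reaches `1` has a normal complement.
-/

set_option autoImplicit false

namespace Cfsg.Agent.Lib.Transfer.FocalSeries

open Cfsg Cfsg.Agent.Lib.Transfer.Focal
open scoped commutatorElement

universe u

/-- An element whose `|N|`-th power is trivial lies in the normal Hall subgroup `N`. -/
theorem mem_of_pow_card_eq_one {G : Type u} [Group G] [Finite G] (N : Subgroup G) [N.Normal]
    (h : Nat.Coprime (Nat.card N) N.index) {y : G} (hy : y ^ Nat.card N = 1) : y ∈ N := by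
  have h1 : (QuotientGroup.mk' N y) ^ Nat.card N = 1 := by rw [← map_pow, hy, map_one]
  have h2 : (QuotientGroup.mk' N y) ^ N.index = 1 := by
    rw [Subgroup.index_eq_card]
    exact pow_card_eq_one'
  have h3 := pow_gcd_eq_one.mpr ⟨h1, h2⟩
  rw [h.gcd_eq_one, pow_one] at h3
  exact (QuotientGroup.eq_one_iff y).mp h3

theorem focal_mono {G : Type u} [Group G] : Monotone (fun K : Subgroup G => K.focalSubgroup) := by
  intro K K' hle
  apply Subgroup.closure_mono
  rintro g ⟨hg, x, hx, u, rfl⟩
  exact ⟨hle hg, x, hle hx, u, rfl⟩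

theorem map_focal_le {G : Type u} [Group G] (M : Subgroup G) (K : Subgroup M) :
    K.focalSubgroup.map M.subtype ≤ (K.map M.subtype).focalSubgroup := by
  rw [Subgroup.focalSubgroup_def, MonoidHom.map_closure, Subgroup.closure_le]
  rintro _ ⟨g, ⟨hg, x, hx, u, rfl⟩, rfl⟩
  apply Subgroup.subset_closure
  refine ⟨⟨_, hg, rfl⟩, x, ⟨x, hx, rfl⟩, u, ?_⟩
  simp [commutatorElement_def]

theorem map_iterate_focal_le {G : Type u} [Group G] (M : Subgroup G) (m : ℕ) (K : Subgroup M) :
    ((fun K : Subgroup M => K.focalSubgroup)^[m] K).map M.subtype ≤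
      (fun K : Subgroup G => K.focalSubgroup)^[m] (K.map M.subtype) := by
  induction m generalizing K with
  | zero => exact le_rfl
  | succ m ih =>
    rw [Function.iterate_succ_apply, Function.iterate_succ_apply]
    exact (ih _).trans (focal_mono.iterate m (map_focal_le M K))

/-- `S0557`. -/
theorem exists_normal_complement_of_iterate_focal (n : ℕ) :
    ∀ {G : Type u} [Group G] [Finite G] (H : Subgroup G), (Nat.card H).Coprime H.index →
      (fun K : Subgroup G => K.focalSubgroup)^[n] H = ⊥ →
      ∃ N : Subgroup G, N.Normal ∧ Subgroup.IsComplement' N H := by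
  induction n with
  | zero =>
    intro G _ _ H _ hfoc
    have hH : H = ⊥ := hfoc
    subst hH
    exact ⟨⊤, inferInstance, Subgroup.isComplement'_top_bot⟩
  | succ n ih =>
    intro G _ _ H hHall hfoc
    rw [Function.iterate_succ_apply] at hfoc
    have hrel : ⁅H, H⁆.relIndex H ∣ Nat.card H := Subgroup.relIndex_dvd_card _ _
    obtain ⟨hf1, hf2, -⟩ := focal_general H
      (Nat.Coprime.coprime_dvd_right hrel hHall.symm)
    set N₁ : Subgroup G := H.transferFocal.ker with hN₁
    set F : Subgroup G := H.focalSubgroup with hF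
    haveI hN₁n : N₁.Normal := inferInstance
    have hFN : F ≤ N₁ := hf1 ▸ inf_le_left
    have hFH : F ≤ H := hf1 ▸ inf_le_right
    set F₁ : Subgroup N₁ := F.subgroupOf N₁ with hF₁
    have hF₁map : F₁.map N₁.subtype = F := Subgroup.map_subgroupOf_eq_of_le hFN
    have hcardF₁ : Nat.card F₁ = Nat.card F :=
      Nat.card_congr (Subgroup.subgroupOfEquivOfLe hFN).toEquiv
    -- `|H| = |F| [G : N₁]`
    have h1 : Nat.card H = Nat.card F * N₁.index := by
      have h2 : N₁.index = N₁.relIndex H := by
        rw [← Subgroup.relIndex_sup_right, sup_comm, hf2, Subgroup.relIndex_top_right]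
      rw [h2, Subgroup.relIndex]
      have h4 : Nat.card (N₁.subgroupOf H) = Nat.card F := by
        have h3 : N₁.subgroupOf H = F.subgroupOf H := by
          rw [← hf1, Subgroup.inf_subgroupOf_right]
        rw [h3]
        exact Nat.card_congr (Subgroup.subgroupOfEquivOfLe hFH).toEquiv
      rw [← h4, mul_comm, (N₁.subgroupOf H).index_mul_card]
    have hFdvd : Nat.card F ∣ Nat.card H := Subgroup.card_dvd_of_le hFH
    have hNidx : N₁.index ≠ 0 := Subgroup.index_ne_zero_of_finite
    have hFpos : Nat.card F ≠ 0 := Nat.card_pos.ne'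
    have h5 : Nat.card N₁ = Nat.card F * H.index := by
      have h6 : Nat.card N₁ * N₁.index = Nat.card F * H.index * N₁.index := by
        rw [N₁.card_mul_index, mul_right_comm, ← h1, H.card_mul_index]
      exact Nat.eq_of_mul_eq_mul_right (Nat.pos_of_ne_zero hNidx) h6
    have hidx : F₁.index = H.index := by
      have h6 : Nat.card F * F₁.index = Nat.card F * H.index := by
        rw [← h5, ← hcardF₁, F₁.card_mul_index]
      exact Nat.eq_of_mul_eq_mul_left (Nat.pos_of_ne_zero hFpos) h6
    have hFcop : (Nat.card F).Coprime H.index := Nat.Coprime.coprime_dvd_left hFdvd hHall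
    have hit : (fun K : Subgroup N₁ => K.focalSubgroup)^[n] F₁ = ⊥ := by
      have h7 := map_iterate_focal_le N₁ n F₁
      rw [hF₁map, hfoc] at h7
      exact (Subgroup.map_eq_bot_iff_of_injective _ N₁.subtype_injective).mp (le_bot_iff.mp h7)
    obtain ⟨N₂, hN₂, hcompl⟩ := ih F₁ (by rw [hcardF₁, hidx]; exact hFcop) hit
    have hcN₂ : Nat.card N₂ = H.index := by
      have h8 := hcompl.card_mul_card
      have h9 : Nat.card N₂ * Nat.card F = H.index * Nat.card F := by
        rw [← hcardF₁, h8, h5, hcardF₁, mul_comm]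
      exact Nat.eq_of_mul_eq_mul_right (Nat.pos_of_ne_zero hFpos) h9
    have hidxN₂ : N₂.index = Nat.card F := by
      rw [hcompl.symm.index_eq_card, hcardF₁]
    have hcop₂ : Nat.Coprime (Nat.card N₂) N₂.index := by
      rw [hcN₂, hidxN₂]; exact hFcop.symm
    refine ⟨N₂.map N₁.subtype, ?_, ?_⟩
    · constructor
      rintro _ ⟨x, hx, rfl⟩ g
      have hy : g * (x : G) * g⁻¹ ∈ N₁ := hN₁n.conj_mem _ x.2 g
      have hy1 : (⟨g * (x : G) * g⁻¹, hy⟩ : N₁) ∈ N₂ := by
        apply mem_of_pow_card_eq_one N₂ hcop₂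
        apply Subtype.ext
        have h10 : ((x : G)) ^ Nat.card N₂ = 1 := by
          have h11 : (⟨x, hx⟩ : N₂) ^ Nat.card N₂ = 1 := pow_card_eq_one'
          have h12 : x ^ Nat.card N₂ = 1 := congrArg Subtype.val h11
          exact congrArg Subtype.val h12
        simp only [Subgroup.coe_pow, Subgroup.coe_one]
        rw [conj_pow, h10]
        simp
      exact ⟨_, hy1, rfl⟩
    · have hcN : Nat.card (N₂.map N₁.subtype) = H.index := by
        rw [Subgroup.card_map_of_injective N₁.subtype_injective, hcN₂]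
      apply Subgroup.isComplement'_of_coprime
      · rw [hcN, H.index_mul_card]
      · rw [hcN]; exact hHall.symm

end Cfsg.Agent.Lib.Transfer.FocalSeries
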