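import Cfsg.Agent.Lib.Transfer.SmallSylow

/-!
# `Ω₁` of an abelian `p`-group and the rank; Burnside's criterion for abelian Sylow subgroups

* `index_range_pow_le`: in a finite abelian group generated by `d` elements the `p`-th powers have
  index at most `p ^ d`.
* `card_ker_pow_le`: an abelian group generated by `d` elements has at most `p ^ d` elements with
  `x ^ p = 1`.
* `S3969`: the criterion with `(p - 1)(p ^ 2 - 1) ⋯ (p ^ d - 1)`.
-/

set_option autoImplicit false

namespace Cfsg.Agent.Lib.Transfer.Omega1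

open Cfsg Cfsg.Agent.Lib.Transfer.Basic Cfsg.Agent.Lib.Transfer.Frobenius
  Cfsg.Agent.Lib.Transfer.SmallSylow
open scoped Pointwise commutatorElement IsMulCommutative

universe u

section Comm

variable {Z : Type u} [CommGroup Z] [Finite Z]

/-- If `s ^ p ∈ K` then `K` has relative index at most `p` in `K ⊔ ⟨s⟩`. -/
theorem relIndex_sup_zpowers_le (K : Subgroup Z) (s : Z) {p : ℕ} (hp : 0 < p) (hs : s ^ p ∈ K) :
    K.relIndex (K ⊔ Subgroup.zpowers s) ≤ p := by
  rw [Subgroup.relIndex_sup_left]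
  have h1 : (powMonoidHom p : Subgroup.zpowers s →* Subgroup.zpowers s).range ≤
      K.subgroupOf (Subgroup.zpowers s) := by
    rintro _ ⟨⟨z, hz⟩, rfl⟩
    obtain ⟨n, rfl⟩ := Subgroup.mem_zpowers_iff.mp hz
    rw [Subgroup.mem_subgroupOf]
    change (s ^ n) ^ p ∈ K
    rw [← zpow_natCast, ← zpow_mul, mul_comm, zpow_mul, zpow_natCast]
    exact K.zpow_mem hs n
  have h2 : (K.subgroupOf (Subgroup.zpowers s)).index ∣
      (powMonoidHom p : Subgroup.zpowers s →* Subgroup.zpowers s).range.index :=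
    Subgroup.index_dvd_of_le h1
  rw [IsCyclic.index_powMonoidHom_range] at h2
  have h3 : (Nat.card (Subgroup.zpowers s)).gcd p ≤ p := Nat.gcd_le_right _ hp
  exact (Nat.le_of_dvd (Nat.gcd_pos_of_pos_right _ hp) h2).trans h3

/-- In a finite abelian group generated by a finset `S`, a subgroup `H` containing all `p`-th powers
has relative index at most `p ^ |S|` in `H ⊔ ⟨S⟩`. -/
theorem relIndex_sup_closure_le (H : Subgroup Z) {p : ℕ} (hp : 0 < p) (hH : ∀ z : Z, z ^ p ∈ H)
    (S : Finset Z) : H.relIndex (H ⊔ Subgroup.closure (S : Set Z)) ≤ p ^ S.card := by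
  classical
  induction S using Finset.induction_on with
  | empty => simp
  | insert s S hs ih =>
    rw [Finset.card_insert_of_notMem hs, pow_succ]
    have hK : H ≤ H ⊔ Subgroup.closure (S : Set Z) := le_sup_left
    have hK2 : H ⊔ Subgroup.closure (S : Set Z) ≤
        (H ⊔ Subgroup.closure (S : Set Z)) ⊔ Subgroup.zpowers s := le_sup_left
    have heq : H ⊔ Subgroup.closure ((insert s S : Finset Z) : Set Z) =
        (H ⊔ Subgroup.closure (S : Set Z)) ⊔ Subgroup.zpowers s := by
      rw [Finset.coe_insert, Set.insert_eq, Subgroup.closure_union, Subgroup.zpowers_eq_closure]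
      rw [sup_comm (Subgroup.closure {s}), sup_assoc]
    rw [heq, ← Subgroup.relIndex_mul_relIndex _ _ _ hK hK2]
    exact Nat.mul_le_mul ih (relIndex_sup_zpowers_le _ s hp ((le_sup_left : H ≤ H ⊔ Subgroup.closure (S : Set Z)) (hH s)))

/-- In a finite abelian group generated by `S`, `p`-th powers have index at most `p ^ |S|`. -/
theorem index_range_pow_le {p : ℕ} (hp : 0 < p) (S : Finset Z)
    (hS : Subgroup.closure (S : Set Z) = ⊤) :
    (powMonoidHom p : Z →* Z).range.index ≤ p ^ S.card := by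
  have h := relIndex_sup_closure_le (powMonoidHom p : Z →* Z).range hp
    (fun z => ⟨z, rfl⟩) S
  rwa [hS, sup_top_eq, Subgroup.relIndex_top_right] at h

/-- The number of solutions of `x ^ p = 1` equals the index of the `p`-th powers. -/
theorem card_ker_pow_eq (p : ℕ) :
    Nat.card (powMonoidHom p : Z →* Z).ker = (powMonoidHom p : Z →* Z).range.index := by
  have h1 := Subgroup.card_mul_index (powMonoidHom p : Z →* Z).ker
  have h2 := Subgroup.card_mul_index (powMonoidHom p : Z →* Z).range
  rw [Subgroup.index_ker] at h1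
  have hpos : 0 < Nat.card (powMonoidHom p : Z →* Z).range := Nat.card_pos
  apply Nat.eq_of_mul_eq_mul_left hpos
  rw [h2, mul_comm, h1]

/-- An abelian group generated by `S` has at most `p ^ |S|` solutions of `x ^ p = 1`. -/
theorem card_ker_pow_le {p : ℕ} (hp : 0 < p) (S : Finset Z)
    (hS : Subgroup.closure (S : Set Z) = ⊤) :
    Nat.card (powMonoidHom p : Z →* Z).ker ≤ p ^ S.card := by
  rw [card_ker_pow_eq]
  exact index_range_pow_le hp S hS

end Comm

variable {G : Type u} [Group G] [Finite G] {p : ℕ} [hp : Fact p.Prime]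

/-- The subgroup of solutions of `x ^ p = 1` in an abelian subgroup. -/
theorem exists_omega (P : Subgroup G) (hP : IsMulCommutative P) :
    ∃ E : Subgroup G, (∀ x, x ∈ E ↔ x ∈ P ∧ x ^ p = 1) ∧
      (∀ S : Finset P, Subgroup.closure (S : Set P) = ⊤ → Nat.card E ≤ p ^ S.card) := by
  classical
  letI : CommGroup P := { (inferInstance : Group P) with mul_comm := hP.is_comm.comm }
  let f : P →* P := powMonoidHom p
  refine ⟨f.ker.map P.subtype, ?_, ?_⟩
  · intro x
    constructor
    · rintro ⟨⟨z, hz⟩, hz2, rfl⟩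
      refine ⟨hz, ?_⟩
      have : f ⟨z, hz⟩ = 1 := hz2
      exact congrArg Subtype.val this
    · rintro ⟨hx, hx2⟩
      refine ⟨⟨x, hx⟩, ?_, rfl⟩
      exact Subtype.ext hx2
  · intro S hS
    rw [Subgroup.card_map_of_injective P.subtype_injective]
    exact card_ker_pow_le hp.out.pos S hS

/-- If a `p'`-element `y` normalizes an abelian `p`-subgroup `P` and fixes all elements of order `p`
in `P` it centralizes `P`. -/
theorem fixes_of_fixes_omega {P : Subgroup G} (hP : IsMulCommutative P) (hpP : IsPGroup p P)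
    {y : G} (hy : y ∈ Subgroup.normalizer (P : Set G)) (hyc : (orderOf y).Coprime p)
    (h : ∀ x ∈ P, x ^ p = 1 → y * x * y⁻¹ = x) : ∀ x ∈ P, y * x * y⁻¹ = x := by
  have hcomm : ∀ a ∈ P, ∀ b ∈ P, a * b = b * a := fun a ha b hb =>
    congrArg Subtype.val (hP.is_comm.comm ⟨a, ha⟩ ⟨b, hb⟩)
  have key : ∀ k : ℕ, ∀ x ∈ P, x ^ p ^ k = 1 → y * x * y⁻¹ = x := by
    intro k
    induction k with
    | zero =>
      intro x _ hx
      simp only [pow_zero, pow_one] at hx
      simp [hx]
    | succ k ih =>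
      intro x hx hxk
      have h1 : y * x ^ p * y⁻¹ = x ^ p := by
        apply ih _ (P.pow_mem hx p)
        rw [← pow_mul, ← pow_succ']
        exact hxk
      have hyx : y * x * y⁻¹ ∈ P := (mem_normalizer_iff'.mp hy x).mp hx
      obtain ⟨t, ht⟩ : ∃ t, t = y * x * y⁻¹ * x⁻¹ := ⟨_, rfl⟩
      have htP : t ∈ P := ht ▸ P.mul_mem hyx (P.inv_mem hx)
      have ht1 : y * x * y⁻¹ = t * x := by rw [ht]; group
      have hconj : (y * x * y⁻¹) ^ p = y * x ^ p * y⁻¹ := by
        rw [conj_pow]
      have htp : t ^ p = 1 := by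
        have hc : Commute t x := hcomm t htP x hx
        have h2 : (t * x) ^ p = t ^ p * x ^ p := hc.mul_pow p
        rw [← ht1, hconj, h1] at h2
        exact (mul_eq_right.mp h2.symm)
      have hty : y * t * y⁻¹ = t := h t htP htp
      have hpow : ∀ n : ℕ, y ^ n * x * (y ^ n)⁻¹ = t ^ n * x := by
        intro n
        induction n with
        | zero => simp
        | succ n ihn =>
          have h3 : y ^ (n + 1) * x * (y ^ (n + 1))⁻¹ = y * (y ^ n * x * (y ^ n)⁻¹) * y⁻¹ := by
            rw [pow_succ']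
            group
          rw [h3, ihn, show y * (t ^ n * x) * y⁻¹ = (y * t ^ n * y⁻¹) * (y * x * y⁻¹) by group,
            ← conj_pow, hty, ht1, pow_succ, mul_assoc]
      have h4 := hpow (orderOf y)
      rw [pow_orderOf_eq_one] at h4
      simp only [one_mul, inv_one, mul_one] at h4
      have h5 : t ^ orderOf y = 1 := by
        have := h4.symm
        exact mul_eq_right.mp this
      have h6 : orderOf t ∣ Nat.gcd (orderOf y) p :=
        Nat.dvd_gcd (orderOf_dvd_of_pow_eq_one h5) (orderOf_dvd_of_pow_eq_one htp)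
      rw [hyc] at h6
      have h7 : t = 1 := orderOf_eq_one_iff.mp (Nat.dvd_one.mp h6)
      rw [ht1, h7, one_mul]
  intro x hx
  obtain ⟨k, hk⟩ := hpP ⟨x, hx⟩
  exact key k x hx (congrArg Subtype.val hk)

/-- `S3969`. -/
theorem normalizer_le_centralizer_of_coprime_prod (P : Sylow p G) (hab : IsMulCommutative (P : Subgroup G))
    (hcop : Nat.Coprime (Nat.card G) (∏ i ∈ Finset.Icc 1 (Group.rank (P : Subgroup G)), (p ^ i - 1))) :
    Subgroup.normalizer ((P : Subgroup G) : Set G) ≤ Subgroup.centralizer ((P : Subgroup G) : Set G) := by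
  intro x hx
  by_contra hxC
  obtain ⟨y, q, k, hq, hk, hy, hyC⟩ := Cfsg.Agent.S0073.exists_prime_pow_power _ x hxC
  haveI : Fact q.Prime := ⟨hq⟩
  have hyN : Subgroup.zpowers y ≤ Subgroup.normalizer ((P : Subgroup G) : Set G) :=
    Subgroup.zpowers_le.2 ((Subgroup.zpowers_le.2 hx) hy)
  have hyN' : y ∈ Subgroup.normalizer ((P : Subgroup G) : Set G) := hyN (Subgroup.mem_zpowers y)
  have hZp : IsPGroup q (Subgroup.zpowers y) :=
    IsPGroup.of_card (n := k) (by rw [Nat.card_zpowers, hk])
  have hqp : q ≠ p := by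
    rintro rfl
    have h1 := hZp.inf_normalizer_sylow P
    have h2 : y ∈ Subgroup.zpowers y ⊓ (P : Subgroup G) := by
      rw [← h1]
      exact ⟨Subgroup.mem_zpowers y, hyN'⟩
    apply hyC
    rw [Subgroup.mem_centralizer_iff]
    intro z hz
    have := hab.is_comm.comm (⟨z, hz⟩ : (P : Subgroup G)) ⟨y, h2.2⟩
    exact congrArg Subtype.val this
  have hqdvd : q ∣ Nat.card G := by
    have hk0 : k ≠ 0 := by
      rintro rfl
      rw [pow_zero, orderOf_eq_one_iff] at hk
      rw [hk] at hyC
      exact hyC (Subgroup.one_mem _)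
    have h1 : q ∣ orderOf y := by
      rw [hk]; exact dvd_pow_self _ hk0
    exact h1.trans (orderOf_dvd_natCard y)
  have hyc : (orderOf y).Coprime p := by
    rw [hk]
    exact Nat.Coprime.pow_left k ((Nat.coprime_primes hq hp.out).mpr hqp)
  obtain ⟨E, hE, hEcard⟩ := exists_omega (p := p) (P : Subgroup G) hab
  obtain ⟨S, hS1, hS2⟩ := Group.rank_spec (P : Subgroup G)
  have hEle := hEcard S hS2
  rw [hS1] at hEle
  have hEP : E ≤ (P : Subgroup G) := fun z hz => ((hE z).mp hz).1
  -- `y` normalizes `E`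
  have hyE : y ∈ Subgroup.normalizer (E : Set G) := by
    refine mem_normalizer_iff'.mpr ?_
    intro z
    rw [hE, hE, mem_normalizer_iff'.mp hyN' z]
    apply and_congr_right
    intro _
    rw [conj_pow]
    constructor
    · intro h
      rw [h]; group
    · intro h
      have h1 : y⁻¹ * (y * z ^ p * y⁻¹) * y = y⁻¹ * 1 * y := by rw [h]
      simpa [mul_assoc] using h1
  have hmod := card_modEq_card_inf_centralizer E hyE hk
  set F : Subgroup G := E ⊓ Subgroup.centralizer ({y} : Set G) with hF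
  have hFdvd : Nat.card F ∣ Nat.card E := Subgroup.card_dvd_of_le inf_le_left
  have hpE : IsPGroup p E := P.isPGroup'.to_le hEP
  obtain ⟨r, hr⟩ := IsPGroup.iff_card.mp hpE
  obtain ⟨j, hjr, hj⟩ := (Nat.dvd_prime_pow hp.out).mp (hr ▸ hFdvd)
  have hrd : r ≤ Group.rank (P : Subgroup G) := by
    rw [hr] at hEle
    exact (Nat.pow_le_pow_iff_right hp.out.one_lt).mp hEle
  have hFlt : Nat.card F < Nat.card E := by
    apply lt_of_le_of_ne (Nat.le_of_dvd Nat.card_pos hFdvd)
    intro heq
    have hFP : F = E := Subgroup.eq_of_le_of_card_ge inf_le_left heq.ge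
    apply hyC
    rw [Subgroup.mem_centralizer_iff]
    intro z hz
    have h1 := fixes_of_fixes_omega hab P.isPGroup' hyN' hyc (fun w hw hw2 => by
      have hw3 : w ∈ F := hFP ▸ (hE w).mpr ⟨hw, hw2⟩
      have h2 : y * w = w * y := Subgroup.mem_centralizer_iff.mp hw3.2 y rfl
      rw [h2]; group) z hz
    calc z * y = y * z * y⁻¹ * y := by rw [h1]
      _ = y * z := by group
  have hdvd : q ∣ Nat.card E - Nat.card F :=
    (Nat.modEq_iff_dvd' hFlt.le).mp hmod.symm
  rw [hj, hr] at hdvd hFlt
  have hjlt : j < r := (Nat.pow_lt_pow_iff_right hp.out.one_lt).mp hFlt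
  have h3 : p ^ r - p ^ j = p ^ j * (p ^ (r - j) - 1) := by
    rw [Nat.mul_sub, mul_one, ← pow_add, Nat.add_sub_cancel' hjlt.le]
  rw [h3] at hdvd
  have h4 : q ∣ p ^ (r - j) - 1 := by
    rcases (Nat.Prime.dvd_mul hq).mp hdvd with h | h
    · exact absurd ((Nat.prime_dvd_prime_iff_eq hq hp.out).mp (hq.dvd_of_dvd_pow h)) hqp
    · exact h
  have h5 : q ∣ ∏ i ∈ Finset.Icc 1 (Group.rank (P : Subgroup G)), (p ^ i - 1) :=
    h4.trans (Finset.dvd_prod_of_mem _ (Finset.mem_Icc.mpr ⟨by omega, by omega⟩))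
  have h6 := Nat.dvd_gcd hqdvd h5
  rw [hcop] at h6
  exact hq.one_lt.ne' (Nat.dvd_one.mp h6)

theorem hasNormalPComplement_of_coprime_prod (P : Sylow p G) (hab : IsMulCommutative (P : Subgroup G))
    (hcop : Nat.Coprime (Nat.card G) (∏ i ∈ Finset.Icc 1 (Group.rank (P : Subgroup G)), (p ^ i - 1))) :
    HasNormalPComplement p G :=
  ⟨P, _, inferInstance, MonoidHom.ker_transferSylow_isComplement' P
    (normalizer_le_centralizer_of_coprime_prod P hab hcop)⟩

end Cfsg.Agent.Lib.Transfer.Omega1
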